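import Cfsg.Agent.Lib.Geometric.TensorPower.Main
import Cfsg.Agent.Lib.SmallDim.LinearNotLE

/-!
The stabiliser of a decomposition into tensor factors of equal dimension at least three is maximal
in the special linear group.
-/

set_option autoImplicit false

namespace CfsgLib.Geometric.TPow

open Matrix

variable {m t : ℕ} {F : Type*} [Field F]

lemma entry_eq_ap {ι : Type} [Fintype ι] [DecidableEq ι] (g : GL ι F) (x y : ι) :
    (g : Matrix ι ι F) x y = ap g (Pi.single y 1) x := by
  simp [ap_def]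

lemma standard_eq_wreath :
    Cfsg.Geo.tensorWreathStandard m t F = wreath (Fin t) m F := by
  refine le_antisymm ((Subgroup.closure_le _).2 ?_) fun g hg => ?_
  · rintro g (⟨gs, hgs⟩ | ⟨σ, hσ⟩)
    · refine ⟨1, gs, fun u => funext fun x => ?_⟩
      simp only [ap_def, Matrix.mulVec, dotProduct, pv, hgs, ← Finset.prod_mul_distrib]
      exact (Fintype.prod_sum fun i a => (gs i : Matrix (Fin m) (Fin m) F) (x i) a * u i a).symm
    · have : g = perm σ := gl_ext fun z => funext fun x => by
        rw [ap_perm]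
        simp [ap_def, Matrix.mulVec, dotProduct, hσ]
      rw [this]
      exact perm_mem_wreath σ
  · obtain ⟨σ, a, hga⟩ := hg
    have hσ : perm (F := F) (m := m) σ ∈ Cfsg.Geo.tensorWreathStandard m t F :=
      Subgroup.subset_closure (Or.inr ⟨σ, fun x y => by
        rw [entry_eq_ap, ap_perm, Pi.single_apply]
        simp [eq_comm]⟩)
    have h1 := (wrW_perm (F := F) (m := m) σ).inv.mul hga
    rw [inv_mul_cancel] at h1
    have hp : (perm σ)⁻¹ * g ∈ Cfsg.Geo.tensorWreathStandard m t F :=
      Subgroup.subset_closure (Or.inl ⟨_, fun x y => by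
        rw [entry_eq_ap, ← pv_single, h1, pv]
        exact Finset.prod_congr rfl fun l _ => (entry_eq_ap _ _ _).symm⟩)
    simpa using mul_mem hσ hp

/-- The exchange of three factors has determinant one. -/
lemma det_cyc {T : Type} [Fintype T] [DecidableEq T] {a b c : T} (hab : a ≠ b) (hac : a ≠ c) :
    perm (F := F) (m := m) (Equiv.swap a c * Equiv.swap a b) ∈
      Cfsg.Geo.specialLinear (T → Fin m) F := by
  obtain ⟨π, hπ⟩ := isConj_iff.1 (Equiv.Perm.isConj_swap hab hac)
  rw [Cfsg.Geo.specialLinear, MonoidHom.mem_ker, ← hπ]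
  simp only [map_mul, map_inv]
  rw [mul_comm (Matrix.GeneralLinearGroup.det (perm π)), mul_inv_cancel_right, ← map_mul, ← map_mul,
    Equiv.swap_mul_self, map_one, map_one]

/-- Transporting to the tensor power. -/
def transport {ι : Type} [Fintype ι] [DecidableEq ι] (e : ι ≃ (Fin t → Fin m)) (P : GL ι F) :
    GL (Fin t → Fin m) F ≃* GL ι F :=
  (Cfsg.Geo.glReindex e.symm).trans (MulAut.conj P)

lemma transport_mem_specialLinear {ι : Type} [Fintype ι] [DecidableEq ι]
    (e : ι ≃ (Fin t → Fin m)) (P : GL ι F) (z : GL (Fin t → Fin m) F) :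
    transport e P z ∈ Cfsg.Geo.specialLinear ι F ↔
      z ∈ Cfsg.Geo.specialLinear (Fin t → Fin m) F := by
  have h : transport e P z = P * Cfsg.Geo.glReindex e.symm z * P⁻¹ := rfl
  rw [h, Cfsg.Geo.specialLinear, MonoidHom.mem_ker, map_mul, map_mul, map_inv, mul_comm,
    inv_mul_cancel_left, ← MonoidHom.mem_ker, ← Cfsg.Geo.specialLinear, mem_specialLinear_iff,
    mem_specialLinear_iff]
  simp [Cfsg.Geo.glReindex, Matrix.det_reindex_self]

theorem isMaximalIn [Finite F] {ι : Type} [Fintype ι] [DecidableEq ι] (hm : 3 ≤ m) (ht : 2 ≤ t)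
    (e : ι ≃ (Fin t → Fin m)) (P : GL ι F) :
    Cfsg.Geo.IsMaximalIn (Cfsg.Geo.specialLinear ι F)
      (Cfsg.Geo.tensorWreathSubgroup m t e P ⊓ Cfsg.Geo.specialLinear ι F) := by
  refine ⟨lt_of_le_of_ne inf_le_right fun he =>
    SmallDim.not_sl_le_tensorWreathSubgroup (by omega) ht e P (inf_eq_right.1 he), fun M hHM hMS => ?_⟩
  set M' := M.comap (transport e P).toMonoidHom with hM'
  have hin : ∀ z ∈ wreath (Fin t) m F, z ∈ Cfsg.Geo.specialLinear (Fin t → Fin m) F → z ∈ M' := by
    intro z hz hzS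
    refine hHM ⟨?_, (transport_mem_specialLinear e P z).2 hzS⟩
    exact ⟨_, ⟨z, by rw [SetLike.mem_coe, standard_eq_wreath]; exact hz, rfl⟩, rfl⟩
  have hO : Over M' :=
    ⟨fun i a ha => hin _ (slot_mem_wreath i a) (det_slot i ha),
      fun a b c hab _ hac => hin _ (perm_mem_wreath _) (det_cyc hab hac)⟩
  rcases dichotomy hm (Fin t) (by simpa using ht) M' hO with hX | hW
  · refine Or.inr (le_antisymm hMS fun g hg => ?_)
    obtain ⟨z, rfl⟩ := (transport e P).surjective g
    exact specialLinear_le_of_mixed hX ((transport_mem_specialLinear e P z).1 hg)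
  · refine Or.inl (le_antisymm (fun g hg => ⟨?_, hMS hg⟩) hHM)
    obtain ⟨z, rfl⟩ := (transport e P).surjective g
    exact ⟨_, ⟨z, by rw [SetLike.mem_coe, standard_eq_wreath]; exact hW hg, rfl⟩, rfl⟩

end CfsgLib.Geometric.TPow
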