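import Cfsg.Agent.Lib.Geometric.TensorPower.Lift

/-!
A pair of slices spanning least, one of them moved by an element outside the wreath product: the
factorwise elements moving into their span fix the first slice and move exactly it.
-/

set_option autoImplicit false

namespace CfsgLib.Geometric.TPow

open Matrix

variable {T : Type} [Fintype T] [DecidableEq T] {m : ℕ} {F : Type*} [Field F]
variable {M : Subgroup (GL (T → Fin m) F)}

variable (M) in
/-- The elements of `M` carrying a slice to a slice act factorwise. -/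
def SliceClosed : Prop :=
  ∀ g ∈ M, ∀ (i j : T) (w w' : Fin m → F), w ≠ 0 → w' ≠ 0 →
    (slice j w').map (apEquiv g).toLinearMap = slice i w → g ∈ wreath T m F

lemma sdim_pos (hm : 3 ≤ m) : 0 < sdim T m := by
  have : 0 < m := by omega
  simp only [sdim]; positivity

/-- A conjugate of an element moving a slice, lying in the wreath product, exchanges two factors. -/
lemma sign_eq_neg_one (hm : 3 ≤ m) [Nonempty T] (hA : SliceClosed M) {g r : GL (T → Fin m) F}
    (hg : g ∈ M) (hgW : g ∉ wreath T m F) {i : T} {v : Fin m → F} (hv : v ≠ 0)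
    (hr : mov r = slice i v) {σ : Equiv.Perm T} {a : T → GL (Fin m) F}
    (hk : WrW (g * r * g⁻¹) σ a) : Equiv.Perm.sign σ = -1 := by
  have hmov : mov (g * r * g⁻¹) = (slice i v).map (apEquiv g).toLinearMap := by rw [mov_conj, hr]
  have hd : Module.finrank F (mov (g * r * g⁻¹)) = sdim T m := by
    rw [hmov, LinearEquiv.finrank_map_eq, finrank_slice i hv]
  have h1 : g * r * g⁻¹ ≠ 1 := by
    intro he
    have hbot : mov (1 : GL (T → Fin m) F) = ⊥ := le_bot_iff.1 (mov_le_iff.2 fun z => by simp)
    rw [he, hbot, finrank_bot] at hd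
    have := sdim_pos (T := T) hm
    omega
  by_cases hσ : σ = 1
  · subst hσ
    obtain ⟨l, u, hu, hlu⟩ := mov_eq_slice hm hk h1 hd.le
    exact absurd (hA g hg l i u v hu hv (hmov.symm.trans hlu)) hgW
  · obtain ⟨x, y, hxy, rfl⟩ := perm_eq_swap hm hk hd.le hσ
    exact Equiv.Perm.sign_swap hxy

/-- Two conjugates and their product cannot all exchange two factors. -/
lemma not_both_conj (hm : 3 ≤ m) [Nonempty T] (hA : SliceClosed M) {g r r' : GL (T → Fin m) F}
    (hg : g ∈ M) (hgW : g ∉ wreath T m F) {i : T} {v v' v'' : Fin m → F} (hv : v ≠ 0)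
    (hv' : v' ≠ 0) (hv'' : v'' ≠ 0) (hr : mov r = slice i v) (hr' : mov r' = slice i v')
    (hrr : mov (r * r') = slice i v'') :
    g * r * g⁻¹ ∉ wreath T m F ∨ g * r' * g⁻¹ ∉ wreath T m F := by
  rw [← not_and_or]
  rintro ⟨⟨σ, a, hk⟩, ⟨τ, b, hk'⟩⟩
  have h := hk.mul hk'
  rw [show g * r * g⁻¹ * (g * r' * g⁻¹) = g * (r * r') * g⁻¹ by group] at h
  have h1 := sign_eq_neg_one hm hA hg hgW hv hr hk
  have h2 := sign_eq_neg_one hm hA hg hgW hv' hr' hk'
  have h3 := sign_eq_neg_one hm hA hg hgW hv'' hrr h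
  rw [map_mul, h1, h2] at h3
  exact absurd h3 (by decide)

/-- Two vectors killed by a functional, not collinear. -/
lemma exists_pair (hm : 3 ≤ m) {φ : Fin m → F} (hφ : φ ≠ 0) :
    ∃ v v' : Fin m → F, φ ⬝ᵥ v = 0 ∧ φ ⬝ᵥ v' = 0 ∧ v ≠ 0 ∧ v' ≠ 0 ∧ v + v' ≠ 0 := by
  obtain ⟨v, hv0, hv⟩ := exists_ne_zero_dot_one (by omega) φ
  obtain ⟨v', hv', hv'v⟩ : ∃ v' ∈ perp φ, v' ∉ Submodule.span F {v} := by
    by_contra h
    push Not at h
    have h1 := Submodule.finrank_mono (fun x hx => h x hx : perp φ ≤ Submodule.span F {v})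
    have h2 := finrank_perp hφ
    rw [finrank_span_singleton hv0] at h1
    omega
  refine ⟨v, v', by rwa [dotProduct_comm], by rw [dotProduct_comm]; exact hv', hv0,
    fun h => hv'v (h ▸ zero_mem _), fun h => hv'v ?_⟩
  rw [eq_neg_of_add_eq_zero_right h]
  exact neg_mem (Submodule.mem_span_singleton_self v)

/-- Some root element of a functional leaves the wreath product under conjugation. -/
lemma exists_conj_root_notMem (hm : 3 ≤ m) [Nonempty T] (hA : SliceClosed M)
    {g : GL (T → Fin m) F} (hg : g ∈ M) (hgW : g ∉ wreath T m F) (i : T) {φ : Fin m → F}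
    (hφ : φ ≠ 0) : ∃ (v : Fin m → F) (h : φ ⬝ᵥ v = 0), g * root i v φ h * g⁻¹ ∉ wreath T m F := by
  obtain ⟨v, v', hv, hv', hv0, hv'0, hvv⟩ := exists_pair hm hφ
  rcases not_both_conj hm hA hg hgW hv0 hv'0 hvv (mov_root i hv hφ) (mov_root i hv' hφ)
    (by rw [root_mul, mov_root _ _ hφ]) with h | h
  · exact ⟨v, hv, h⟩
  · exact ⟨v', hv', h⟩

/-- Some root element of a slice leaves the wreath product under conjugation. -/
lemma exists_conj_rootGroup_notMem (hm : 3 ≤ m) [Nonempty T] (hA : SliceClosed M)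
    {g : GL (T → Fin m) F} (hg : g ∈ M) (hgW : g ∉ wreath T m F) (j : T) {w : Fin m → F}
    (hw : w ≠ 0) : ∃ r ∈ rootGroup j w, g * r * g⁻¹ ∉ wreath T m F := by
  obtain ⟨φ, ψ, hφ, hψ, hφ0, hψ0, hsum⟩ := exists_pair hm hw
  rw [dotProduct_comm] at hφ hψ
  have hs : root j w φ hφ * root j w ψ hψ = root j w (φ + ψ) (by simp [hφ, hψ]) := by
    refine gl_ext fun z => ?_
    simp [ap_mul, hφ, con_add_left]
    abel
  rcases not_both_conj hm hA hg hgW hw hw hw (mov_root j hφ hφ0) (mov_root j hψ hψ0)
    (by rw [hs, mov_root _ _ hsum]) with h | h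
  · exact ⟨_, ⟨φ, hφ, rfl⟩, h⟩
  · exact ⟨_, ⟨ψ, hψ, rfl⟩, h⟩

omit [Fintype T] [DecidableEq T] in
lemma finrank_map_add_le {V V' : Type*} [AddCommGroup V] [Module F V] [FiniteDimensional F V]
    [AddCommGroup V'] [Module F V'] (L : V →ₗ[F] V') {S R : Submodule F V} (hSR : S ≤ R)
    (hS : S ≤ LinearMap.ker L) :
    Module.finrank F (R.map L) + Module.finrank F S ≤ Module.finrank F R := by
  have h := (L.comp R.subtype).finrank_range_add_finrank_ker
  rw [LinearMap.range_comp, Submodule.range_subtype] at h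
  have h2 : S.comap R.subtype ≤ LinearMap.ker (L.comp R.subtype) := fun x hx => hS hx
  have h3 := Submodule.finrank_mono h2
  rw [(Submodule.comapSubtypeEquivOfLe hSR).finrank_eq] at h3
  omega

omit [Fintype T] [DecidableEq T] in
lemma finrank_sup_singleton {V : Type*} [AddCommGroup V] [Module F V] [FiniteDimensional F V]
    {W : Submodule F V} {v : V} (hv : v ∉ W) :
    Module.finrank F ↥(W ⊔ Submodule.span F {v}) = Module.finrank F W + 1 := by
  have hv0 : v ≠ 0 := fun h => hv (h ▸ zero_mem _)
  have h := Submodule.finrank_sup_add_finrank_inf_eq W (Submodule.span F {v})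
  have hinf : W ⊓ Submodule.span F {v} = ⊥ :=
    disjoint_iff.1 ((Submodule.disjoint_span_singleton' hv0).2 hv)
  rw [hinf, finrank_bot, finrank_span_singleton hv0] at h
  omega

omit [Fintype T] [DecidableEq T] in
/-- A map satisfying a quadratic equation without roots lives in even dimension. -/
lemma even_finrank_of_quadratic {V : Type*} [AddCommGroup V] [Module F V] [FiniteDimensional F V]
    (H : V →ₗ[F] V) {s r : F} (hH : ∀ y, H (H y) = s • H y + r • y)
    (hroot : ∀ x : F, x ^ 2 ≠ s * x + r) : Even (Module.finrank F V) := by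
  suffices key : ∀ n, ∀ W : Submodule F V, (∀ x ∈ W, H x ∈ W) →
      Module.finrank F V = Module.finrank F W + n → Even n from
    key _ ⊥ (fun x hx => by rw [(Submodule.mem_bot F).1 hx, map_zero]; exact zero_mem _)
      (by rw [finrank_bot, zero_add])
  intro n
  induction n using Nat.strong_induction_on with
  | _ n ih =>
    intro W hW hn
    rcases Nat.eq_zero_or_pos n with rfl | hpos
    · exact Even.zero
    obtain ⟨v, -, hv⟩ : ∃ v ∈ (⊤ : Submodule F V), v ∉ W := SetLike.exists_of_lt
      (lt_top_iff_ne_top.2 fun h => by rw [h, finrank_top] at hn; omega)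
    have hHv : H v ∉ W ⊔ Submodule.span F {v} := by
      intro hmem
      obtain ⟨u, hu, x, hx, hux⟩ := Submodule.mem_sup.1 hmem
      obtain ⟨c, rfl⟩ := Submodule.mem_span_singleton.1 hx
      have h1 := hH v
      rw [← hux, map_add, map_smul, ← hux] at h1
      have h2 : (c ^ 2 - (s * c + r)) • v = s • u - H u - c • u := by
        have h3 : H u = s • (u + c • v) + r • v - c • (u + c • v) := eq_sub_of_add_eq h1
        rw [h3, sub_smul, add_smul, pow_two, mul_smul, mul_smul, smul_add, smul_add]
        abel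
      refine hv ?_
      have h4 : (c ^ 2 - (s * c + r)) • v ∈ W :=
        h2 ▸ sub_mem (sub_mem (W.smul_mem s hu) (hW u hu)) (W.smul_mem c hu)
      exact (Submodule.smul_mem_iff W (sub_ne_zero.2 (hroot c))).1 h4
    set W' := W ⊔ Submodule.span F {v} ⊔ Submodule.span F {H v} with hW'
    have hdim : Module.finrank F W' = Module.finrank F W + 2 := by
      rw [hW', finrank_sup_singleton hHv, finrank_sup_singleton hv]
    have hle := Submodule.finrank_le W'
    have hinv : ∀ x ∈ W', H x ∈ W' := by
      intro x hx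
      have : W'.map H ≤ W' := by
        rw [hW', Submodule.map_sup, Submodule.map_sup, Submodule.map_span, Submodule.map_span,
          Set.image_singleton, Set.image_singleton]
        refine sup_le (sup_le ?_ le_sup_right) ?_
        · rintro _ ⟨y, hy, rfl⟩
          exact Submodule.mem_sup_left (Submodule.mem_sup_left (hW y hy))
        · rw [Submodule.span_singleton_le_iff_mem, hH]
          exact add_mem (Submodule.mem_sup_right (Submodule.smul_mem _ _
            (Submodule.mem_span_singleton_self _))) (Submodule.mem_sup_left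
              (Submodule.mem_sup_right (Submodule.smul_mem _ _ (Submodule.mem_span_singleton_self _))))
      exact this ⟨x, hx, rfl⟩
    obtain ⟨k, hk⟩ := ih (n - 2) (by omega) W' hinv (by omega)
    exact ⟨k + 1, by omega⟩

variable (M) in
/-- A pair of slices spanning least. -/
structure Least (g : GL (T → Fin m) F) (i j : T) (w w' : Fin m → F) : Prop where
  mem : g ∈ M
  notMem : g ∉ wreath T m F
  ne_zero : w ≠ 0
  ne_zero' : w' ≠ 0
  least : ∀ g' ∈ M, g' ∉ wreath T m F → ∀ (i' j' : T) (v v' : Fin m → F), v ≠ 0 → v' ≠ 0 →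
    Module.finrank F ↥(slice i w ⊔ (slice j w').map (apEquiv g).toLinearMap) ≤
      Module.finrank F ↥(slice i' v ⊔ (slice j' v').map (apEquiv g').toLinearMap)

/-- The span of the two slices. -/
abbrev span2 (g : GL (T → Fin m) F) (i j : T) (w w' : Fin m → F) :
    Submodule F ((T → Fin m) → F) :=
  slice i w ⊔ (slice j w').map (apEquiv g).toLinearMap

variable {g : GL (T → Fin m) F} {i j : T} {w w' : Fin m → F}

/-- A functional killing the first slice kills nothing else in the span. -/
lemma Least.mem_slice_of_con (hL : Least M g i j w w') (hm : 3 ≤ m) [Nonempty T] (hM : Over M)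
    (hA : SliceClosed M) {x : (T → Fin m) → F} (hx : x ∈ span2 g i j w w') {φ : Fin m → F}
    (hφ : φ ≠ 0) (hφw : φ ⬝ᵥ w = 0) (hφx : con i φ x = 0) : x ∈ slice i w := by
  by_contra hxS
  obtain ⟨v, hv, hk⟩ := exists_conj_root_notMem hm hA (M.inv_mem hL.mem)
    (fun h => hL.notMem (by simpa using (wreath T m F).inv_mem h)) i hφ
  have hkM : g⁻¹ * root i v φ hv * g⁻¹⁻¹ ∈ M :=
    M.mul_mem (M.mul_mem (M.inv_mem hL.mem) (hM.root_mem _ _ _ _)) (M.inv_mem (M.inv_mem hL.mem))
  have hle := hL.least _ hkM hk j j w' w' hL.ne_zero' hL.ne_zero'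
  set R := span2 g i j w w' with hR
  have h1 := finrank_map_add_le (con i φ) (S := slice i w ⊔ Submodule.span F {x}) (R := R)
    (sup_le le_sup_left ((Submodule.span_singleton_le_iff_mem _ _).2 hx))
    (sup_le (by rintro _ ⟨y, rfl⟩; simp [hφw]) ((Submodule.span_singleton_le_iff_mem _ _).2 hφx))
  rw [finrank_sup_singleton hxS, finrank_slice i hL.ne_zero] at h1
  have h2 : (slice j w').map (apEquiv (g⁻¹ * root i v φ hv * g⁻¹⁻¹)).toLinearMap ≤
      slice j w' ⊔ (R.map (con i φ)).map ((apEquiv g⁻¹).toLinearMap.comp (ten i v)) := by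
    rintro _ ⟨y, hy, rfl⟩
    simp only [LinearEquiv.coe_coe, apEquiv_apply, ap_mul, inv_inv, ap_root, ap_add, ap_inv_ap]
    exact Submodule.add_mem_sup hy ⟨_, ⟨_, Submodule.mem_sup_right ⟨y, hy, rfl⟩, rfl⟩, rfl⟩
  have h3 := Submodule.finrank_mono (sup_le (le_sup_left : slice j w' ≤ _) h2)
  have h4 := Submodule.finrank_add_le_finrank_add_finrank (slice j w')
    ((R.map (con i φ)).map ((apEquiv g⁻¹).toLinearMap.comp (ten i v)))
  rw [finrank_slice j hL.ne_zero'] at h4
  change Module.finrank F R ≤ _ at hle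
  have h5 := Submodule.finrank_map_le ((apEquiv g⁻¹).toLinearMap.comp (ten i v))
    (R.map (con i φ))
  omega

/-- A product in the span lies in the first slice. -/
lemma Least.ten_mem (hL : Least M g i j w w') (hm : 3 ≤ m) [Nonempty T] (hM : Over M)
    (hA : SliceClosed M) {v : Fin m → F} {y : Rest i m → F}
    (h : ten i v y ∈ span2 g i j w w') : ten i v y ∈ slice i w := by
  obtain ⟨φ, hφ, hφw, hφv⟩ := exists_ne_zero_dot_two hm w v
  exact hL.mem_slice_of_con hm hM hA h hφ hφw (by simp [hφv])

lemma mem_span_of_ten_mem {v : Fin m → F} {y : Rest i m → F} (hw : w ≠ 0) (hy : y ≠ 0)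
    (h : ten i v y ∈ slice i w) : v ∈ Submodule.span F {w} := by
  by_contra hv
  obtain ⟨φ, hφ, hφv⟩ := exists_dot_of_notMem hv
  have := (mem_slice_iff i hw).1 h φ (hφ _ (Submodule.mem_span_singleton_self _))
  rw [con_ten, hφv, one_smul] at this
  exact hy this

/-- A factorwise element moving into the span fixes the first factor and its vector. -/
lemma Least.exists_split (hL : Least M g i j w w') (hm : 3 ≤ m) [Nonempty T] (hM : Over M)
    (hA : SliceClosed M) {d : GL (T → Fin m) F} (hd : d ∈ wreath T m F)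
    (hdR : d ∈ movInto (span2 g i j w w')) :
    ∃ (a : GL (Fin m) F) (h : (Rest i m → F) ≃ₗ[F] (Rest i m → F)) (μ : F),
      ap a w = μ • w ∧ ∀ v y, ap d (ten i v y) = ten i (ap a v) (h y) := by
  obtain ⟨σ, a, hda⟩ := hd
  obtain ⟨h, hh⟩ := hda.split (by omega) i
  have hw := hL.ne_zero
  have hw'' : ap (a (σ i)) w ≠ 0 := ap_ne_zero _ hw
  have hne : Nonempty (Rest i m) := ⟨fun _ => ⟨0, by omega⟩⟩
  have hsl : slice (σ i) (ap (a (σ i)) w) ≤ span2 g i j w w' := by
    rw [← Split.map_slice hh w]
    rintro _ ⟨z, hz, rfl⟩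
    exact ap_mem_of_movInto hdR (Submodule.mem_sup_left hz)
  have hσ : σ i = i := by
    by_contra hne'
    obtain ⟨v, hv, hvw⟩ : ∃ v : Fin m → F, v ≠ 0 ∧ v ∉ Submodule.span F {w} := by
      obtain ⟨v, hv⟩ := exists_notMem_span_two hm w w
      exact ⟨v, fun h => hv (h ▸ zero_mem _), fun h => hv (Submodule.span_mono (by simp) h)⟩
    set u : T → Fin m → F :=
      Function.update (fun _ => ap (a (σ i)) w) i v with hu
    have h1 : pv u ∈ slice (σ i) (ap (a (σ i)) w) := by
      rw [pv_eq_ten (σ i), hu, Function.update_of_ne hne']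
      exact ten_mem_slice _ _ _
    have h2 : pv u = ten i v (pv fun _ : {l : T // l ≠ i} => ap (a (σ i)) w) := by
      rw [pv_eq_ten i, hu, Function.update_self]
      congr 2
      funext l
      rw [Function.update_of_ne l.2]
    have hy : (pv fun _ : {l : T // l ≠ i} => ap (a (σ i)) w) ≠ 0 := by
      obtain ⟨c, hc⟩ := Function.ne_iff.1 hw''
      exact Function.ne_iff.2 ⟨fun _ => c, by
        simp only [pv, Pi.zero_apply, Finset.prod_ne_zero_iff]
        exact fun _ _ => hc⟩
    refine hvw (mem_span_of_ten_mem hw hy (hL.ten_mem hm hM hA ?_))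
    rw [← h2]
    exact hsl h1
  have hsp : Split d i i := by
    have h := split_of_wreath (by omega) hda i
    rwa [hσ] at h
  obtain ⟨a', h', hh'⟩ := hsp
  obtain ⟨ν, hν⟩ : ∃ ν : F, ν • w = ap a' w := Submodule.mem_span_singleton.1
    (mem_span_of_ten_mem hw (y := h' fun _ => 1)
      (fun h0 => one_ne_zero (congrFun (h'.map_eq_zero_iff.1 h0) (Classical.arbitrary _)))
      (hL.ten_mem hm hM hA (hh' w (fun _ => 1) ▸
        ap_mem_of_movInto hdR (Submodule.mem_sup_left (ten_mem_slice i w _)))))
  exact ⟨a', h', ν, hν.symm, hh'⟩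

/-- A factorwise element moving into the span is trivial or moves exactly the first slice. -/
theorem Least.mov_eq (hL : Least M g i j w w') (hm : 3 ≤ m) [Nonempty T] (hM : Over M)
    (hA : SliceClosed M) {d : GL (T → Fin m) F} (hd : d ∈ wreath T m F)
    (hdR : d ∈ movInto (span2 g i j w w')) : d = 1 ∨ mov d = slice i w := by
  obtain ⟨a, h, μ, hμ, hdt⟩ := hL.exists_split hm hM hA hd hdR
  have hne : Nonempty (Rest i m) := ⟨fun _ => ⟨0, by omega⟩⟩
  have hw := hL.ne_zero
  set R := span2 g i j w w' with hR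
  have hRdim : Module.finrank F R ≤ 2 * sdim T m := by
    refine (Submodule.finrank_add_le_finrank_add_finrank _ _).trans ?_
    rw [LinearEquiv.finrank_map_eq, finrank_slice i hw, finrank_slice j hL.ne_zero']
    omega
  have hdiff : ∀ φ : Fin m → F, ∀ z, con i φ (ap d z) =
      h (con i (Matrix.vecMul φ (a : Matrix (Fin m) (Fin m) F)) z) := fun φ =>
    LinearMap.congr_fun (ext_ten i (f := (con i φ).comp (apEquiv d).toLinearMap)
      (f' := h.toLinearMap.comp (con i (Matrix.vecMul φ (a : Matrix (Fin m) (Fin m) F))))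
      fun v y => by simp [hdt, ← Matrix.dotProduct_mulVec, ← ap_def])
  -- the action on the other factors is scalar
  have hc : ∃ c : F, ∀ y, h y = c • y := by
    by_cases hpair : ∃ v φ : Fin m → F, v ∉ Submodule.span F {w} ∧ φ ≠ 0 ∧ φ ⬝ᵥ w = 0 ∧
        φ ⬝ᵥ v = 0 ∧ φ ⬝ᵥ ap a v = 0
    · obtain ⟨v, φ, hvw, hφ, hφw, hφv, hφa⟩ := hpair
      suffices key : ∀ y, h y ∈ Submodule.span F {y} by
        obtain ⟨c, hc⟩ := LinearMap.exists_eq_smul_id_of_forall_notLinearIndependent
          (f := h.toLinearMap) fun y hli => by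
            obtain ⟨c, hc⟩ := Submodule.mem_span_singleton.1 (key y)
            exact absurd (LinearIndependent.pair_iff.1 hli c (-1) (by simp [hc])).2 (by simp)
        exact ⟨c, fun y => LinearMap.congr_fun hc y⟩
      intro y
      by_contra hy
      have hx : ap d (ten i v y) - ten i v y ∈ slice i w :=
        hL.mem_slice_of_con hm hM hA (hdR _) hφ hφw (by simp [hdt, hφv, hφa])
      refine hvw ?_
      by_contra hv
      obtain ⟨ψ, hψ, hψv⟩ := exists_dot_of_notMem hv
      have h1 := (mem_slice_iff i hw).1 hx ψ (hψ _ (Submodule.mem_span_singleton_self _))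
      simp only [hdt, map_sub, con_ten, hψv, one_smul, sub_eq_zero] at h1
      by_cases hb : ψ ⬝ᵥ ap a v = 0
      · rw [hb, zero_smul] at h1
        exact hy (by rw [← h1, map_zero]; exact zero_mem _)
      · refine hy (Submodule.mem_span_singleton.2 ⟨(ψ ⬝ᵥ ap a v)⁻¹, ?_⟩)
        nth_rw 1 [← h1]
        rw [inv_smul_smul₀ hb]
    exfalso
    push Not at hpair
    obtain ⟨v₁, hv₁⟩ : ∃ v : Fin m → F, v ∉ Submodule.span F {w} := by
      obtain ⟨v, hv⟩ := exists_notMem_span_two hm w w
      exact ⟨v, fun h => hv (Submodule.span_mono (by simp) h)⟩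
    have hm3 : m = 3 := by
      by_contra hne3
      obtain ⟨φ, hφ, hφs⟩ := exists_ne_zero_dot (show 3 < m by omega) ![w, v₁, ap a v₁]
      exact hpair v₁ φ hv₁ hφ (hφs 0) (hφs 1) (hφs 2)
    -- a vector outside the line killed by a functional
    have hker : ∀ φ : Fin m → F, φ ≠ 0 → ∃ v, v ∉ Submodule.span F {w} ∧ φ ⬝ᵥ v = 0 := by
      intro φ hφ
      by_contra hno
      push Not at hno
      have h1 := Submodule.finrank_mono (fun x hx => by
        by_contra hxw
        exact hno x hxw (by rw [dotProduct_comm]; exact hx) : perp φ ≤ Submodule.span F {w})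
      have h2 := finrank_perp hφ
      rw [finrank_span_singleton hw] at h1
      omega
    obtain ⟨φ₀, hφ₀, hφ₀w⟩ := exists_ne_zero_dot_one (by omega) w
    set φ₁ := Matrix.vecMul φ₀ (a : Matrix (Fin m) (Fin m) F) with hφ₁
    have hvm : ∀ φ u : Fin m → F, Matrix.vecMul φ (a : Matrix (Fin m) (Fin m) F) ⬝ᵥ u =
        φ ⬝ᵥ ap a u := fun φ u => by rw [ap_def, Matrix.dotProduct_mulVec]
    have hφ₁w : φ₁ ⬝ᵥ w = 0 := by rw [hvm, hμ, dotProduct_smul, hφ₀w, smul_zero]
    have heig : ∀ (φ : Fin m → F) (x : F), φ ≠ 0 → φ ⬝ᵥ w = 0 →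
        Matrix.vecMul φ (a : Matrix (Fin m) (Fin m) F) ≠ x • φ := by
      intro φ x hφ hφw he
      obtain ⟨v, hv, hφv⟩ := hker φ hφ
      exact hpair v φ hv hφ hφw hφv (by rw [← hvm, he, smul_dotProduct, hφv, smul_zero])
    have hind : φ₁ ∉ Submodule.span F {φ₀} := fun h' => by
      obtain ⟨x, hx⟩ := Submodule.mem_span_singleton.1 h'
      exact heig φ₀ x hφ₀ hφ₀w hx.symm
    have hspan : perp w = Submodule.span F {φ₀} ⊔ Submodule.span F {φ₁} := by
      refine (Submodule.eq_of_le_of_finrank_le (sup_le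
        ((Submodule.span_singleton_le_iff_mem _ _).2 hφ₀w)
        ((Submodule.span_singleton_le_iff_mem _ _).2 hφ₁w)) ?_).symm
      rw [finrank_sup_singleton hind, finrank_span_singleton hφ₀]
      have := finrank_perp hw
      omega
    have hmem : ∀ φ : Fin m → F, φ ⬝ᵥ w = 0 → ∃ r s : F, φ = r • φ₀ + s • φ₁ := by
      intro φ hφ
      have hφ' : φ ∈ Submodule.span F {φ₀} ⊔ Submodule.span F {φ₁} := hspan ▸ hφ
      obtain ⟨x, hx, y, hy, rfl⟩ := Submodule.mem_sup.1 hφ'
      obtain ⟨r, rfl⟩ := Submodule.mem_span_singleton.1 hx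
      obtain ⟨s, rfl⟩ := Submodule.mem_span_singleton.1 hy
      exact ⟨r, s, rfl⟩
    obtain ⟨r, s, hrs⟩ := hmem (Matrix.vecMul φ₁ (a : Matrix (Fin m) (Fin m) F))
      (by rw [hvm, hμ, dotProduct_smul, hφ₁w, smul_zero])
    have hroot : ∀ x : F, x ^ 2 ≠ s * x + r := by
      intro x hx
      refine heig (φ₁ - (s - x) • φ₀) x ?_ (by simp [hφ₁w, hφ₀w]) ?_
      · intro h0
        refine hind ?_
        rw [sub_eq_zero.1 h0]
        exact Submodule.smul_mem _ _ (Submodule.mem_span_singleton_self _)
      · rw [Matrix.sub_vecMul, Matrix.smul_vecMul, hrs, ← hφ₁]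
        have hr : r = x * x - s * x := by rw [← pow_two, hx]; ring
        subst hr
        module
    -- the vectors moved into the slice
    let L := (con i φ₀).prod (con (m := m) i φ₁)
    let D : ((T → Fin m) → F) →ₗ[F] (Rest i m → F) × (Rest i m → F) :=
      L.comp ((apEquiv d).toLinearMap - LinearMap.id)
    have hrange : Module.finrank F (LinearMap.range D) + sdim T m ≤ 2 * sdim T m := by
      have h1 : Module.finrank F (R.map L) + Module.finrank F (slice i w) ≤ Module.finrank F R :=
        finrank_map_add_le L le_sup_left (by rintro _ ⟨y, rfl⟩; simp [L, hφ₀w, hφ₁w])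
      have h2 : LinearMap.range D ≤ R.map L := by
        rintro _ ⟨z, rfl⟩
        exact ⟨_, hdR z, rfl⟩
      have h3 := Submodule.finrank_mono h2
      rw [finrank_slice i hw] at h1
      omega
    have hK : ∀ z ∈ LinearMap.ker D, con i φ₁ z = h.symm (con i φ₀ z) ∧
        h.symm (con i φ₁ z) = s • con i φ₁ z + r • con i φ₀ z := by
      intro z hz
      have hz' : L (ap d z - z) = 0 := hz
      have e0 : con i φ₀ (ap d z - z) = 0 := congrArg Prod.fst hz'
      have e1 : con i φ₁ (ap d z - z) = 0 := congrArg Prod.snd hz'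
      rw [map_sub, sub_eq_zero, hdiff] at e0 e1
      rw [← hφ₁] at e0
      rw [hrs, con_add_left, con_smul_left, con_smul_left] at e1
      rw [LinearEquiv.eq_symm_apply, LinearEquiv.symm_apply_eq, add_comm (s • con i φ₁ z)]
      exact ⟨e0, e1.symm⟩
    set f := (con i φ₀).comp (LinearMap.ker D).subtype with hf
    have hfsur : LinearMap.range f = ⊤ := by
      refine Submodule.eq_top_of_finrank_eq (le_antisymm (Submodule.finrank_le _) ?_)
      have hkerf : LinearMap.ker f ≤ (slice i w).comap (LinearMap.ker D).subtype := by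
        intro z hz
        have h0 : con i φ₀ (z : (T → Fin m) → F) = 0 := hz
        have h1 := (hK z z.2).1
        rw [h0, map_zero] at h1
        refine (mem_slice_iff i hw).2 fun φ hφ => ?_
        obtain ⟨r', s', rfl⟩ := hmem φ hφ
        simp only [Submodule.subtype_apply, con_add_left, con_smul_left, h0, h1, smul_zero,
          add_zero]
      have h1 := Submodule.finrank_mono hkerf
      have h2 : Module.finrank F ↥((slice i w).comap (LinearMap.ker D).subtype) ≤ sdim T m := by
        refine le_trans (LinearMap.finrank_le_finrank_of_injective (f :=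
          ((LinearMap.ker D).subtype.domRestrict _).codRestrict (slice i w) fun z => z.2)
          fun z z' hzz => Subtype.ext (Subtype.ext (congrArg Subtype.val hzz :))) ?_
        rw [finrank_slice i hw]
      have h3 := f.finrank_range_add_finrank_ker
      have h4 := D.finrank_range_add_finrank_ker
      have h5 : Module.finrank F ((T → Fin m) → F) = 3 * sdim T m := by rw [finrank_whole, hm3]
      rw [finrank_rest]
      omega
    have hquad : ∀ y, h.symm (h.symm y) = s • h.symm y + r • y := by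
      intro y
      obtain ⟨z, rfl⟩ : y ∈ LinearMap.range f := hfsur ▸ Submodule.mem_top
      obtain ⟨e1, e2⟩ := hK z z.2
      change h.symm (h.symm (con i φ₀ (z : (T → Fin m) → F))) = _
      rw [← e1, e2, e1]
      rfl
    have heven := even_finrank_of_quadratic h.symm.toLinearMap hquad hroot
    rw [finrank_rest, sdim, hm3, ← Nat.not_odd_iff_even] at heven
    exact heven ((show Odd 3 by decide).pow)
  obtain ⟨c, hc⟩ := hc
  have hval : ∀ v y, ap d (ten i v y) - ten i v y = ten i (c • ap a v - v) y := fun v y => by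
    rw [hdt, hc, map_smul, ten_sub_left, ten_smul_left]
  have hspan : ∀ v, c • ap a v - v ∈ Submodule.span F {w} := fun v =>
    mem_span_of_ten_mem hw (y := fun _ => 1)
      (fun h0 => one_ne_zero (congrFun h0 (Classical.arbitrary _)))
      (hL.ten_mem hm hM hA (hval v _ ▸ hdR _))
  by_cases hall : ∀ v, c • ap a v - v = 0
  · left
    refine gl_ext (LinearMap.congr_fun (ext_ten i (f := (apEquiv d).toLinearMap)
      (f' := LinearMap.id) fun v y => ?_) · |>.trans (ap_one _).symm)
    have := hval v y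
    rw [hall v, ten_zero_left, sub_eq_zero] at this
    exact this
  · right
    push Not at hall
    obtain ⟨v₀, hv₀⟩ := hall
    refine le_antisymm ?_ ?_
    · rintro _ ⟨z, rfl⟩
      have hz := eq_sum_ten i z
      rw [hz, map_sum]
      refine Submodule.sum_mem _ fun b _ => ?_
      simp only [LinearMap.sub_apply, LinearEquiv.coe_coe, apEquiv_apply, LinearMap.id_apply, hval]
      obtain ⟨x, hx⟩ := Submodule.mem_span_singleton.1 (hspan (Pi.single b 1))
      rw [← hx, ten_smul_left]
      exact Submodule.smul_mem _ _ (ten_mem_slice _ _ _)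
    · obtain ⟨x, hx⟩ := Submodule.mem_span_singleton.1 (hspan v₀)
      have hx0 : x ≠ 0 := fun h0 => hv₀ (by rw [← hx, h0, zero_smul])
      rw [← slice_smul i hx0 w, hx]
      rintro _ ⟨y, rfl⟩
      rw [← hval]
      exact sub_mem_mov _ _

end CfsgLib.Geometric.TPow
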