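import Cfsg.Agent.Lib.Geometric.TensorPower.Basic
import Cfsg.Agent.Lib.Geometric.LinearTensorUnip

/-!
The wreath product on a tensor power: its elements split along every factor, and one moving at
most the dimension of a slice is a single-factor element or exchanges two factors.
-/

set_option autoImplicit false

namespace CfsgLib.Geometric.TPow

open Matrix

variable {T : Type} [Fintype T] [DecidableEq T] {m : ℕ} {F : Type*} [Field F]

/-- The pure tensor of a family of vectors. -/
def pv (u : T → Fin m → F) : (T → Fin m) → F := fun x => ∏ l, u l (x l)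

lemma pv_single (f : T → Fin m) :
    pv (fun l => (Pi.single (f l) 1 : Fin m → F)) = Pi.single f 1 := by
  funext x
  by_cases h : x = f
  · subst h; simp [pv]
  · obtain ⟨l, hl⟩ := Function.ne_iff.1 h
    rw [Pi.single_eq_of_ne h]
    exact Finset.prod_eq_zero (Finset.mem_univ l) (Pi.single_eq_of_ne hl _)

lemma ext_pv {W : Type*} [AddCommGroup W] [Module F W] {f f' : ((T → Fin m) → F) →ₗ[F] W}
    (h : ∀ u, f (pv u) = f' (pv u)) : f = f' :=
  LinearMap.pi_ext' fun x => LinearMap.ext_ring (by simpa [pv_single] using h fun l => Pi.single (x l) 1)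

lemma gl_ext_pv {g g' : GL (T → Fin m) F} (h : ∀ u, ap g (pv u) = ap g' (pv u)) : g = g' :=
  gl_ext (LinearMap.congr_fun (ext_pv (f := (apEquiv g).toLinearMap)
    (f' := (apEquiv g').toLinearMap) h))

lemma pv_eq_ten (i : T) (u : T → Fin m → F) :
    pv u = ten i (u i) (pv fun l : {l : T // l ≠ i} => u l) := by
  funext x
  simp only [pv, ten_apply, res]
  rw [← Finset.mul_prod_erase _ _ (Finset.mem_univ i)]
  congr 1
  exact Finset.prod_subtype (Finset.univ.erase i) (by simp) _

/-- A product with a basis tensor of the other factors is pure. -/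
lemma ten_single (i : T) (v : Fin m → F) (r : Rest i m) :
    ten i v (Pi.single r 1) =
      pv (fun l => if h : l = i then v else Pi.single (r ⟨l, h⟩) 1) := by
  rw [pv_eq_ten i, dif_pos rfl, ← pv_single r]
  congr 2
  funext l
  rw [dif_neg l.2]

lemma ap_perm_pv (σ : Equiv.Perm T) (u : T → Fin m → F) :
    ap (perm σ) (pv u) = pv fun l => u (σ.symm l) := by
  funext x
  rw [ap_perm]
  exact Fintype.prod_equiv σ _ _ fun l => by simp

lemma ap_slot_pv (i : T) (a : GL (Fin m) F) (u : T → Fin m → F) :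
    ap (slot i a) (pv u) = pv fun l => ap ((Pi.mulSingle i a : T → GL (Fin m) F) l) (u l) := by
  rw [pv_eq_ten i u, slot_ten, pv_eq_ten i fun l => ap ((Pi.mulSingle i a : T → GL (Fin m) F) l) (u l)]
  simp only [Pi.mulSingle_eq_same]
  congr 2
  funext l
  simp [Pi.mulSingle_eq_of_ne l.2]

/-- A witness that `g` acts factorwise after a permutation of the factors. -/
def WrW (g : GL (T → Fin m) F) (σ : Equiv.Perm T) (a : T → GL (Fin m) F) : Prop :=
  ∀ u, ap g (pv u) = pv fun l => ap (a l) (u (σ.symm l))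

lemma WrW.mul {g g' : GL (T → Fin m) F} {σ τ : Equiv.Perm T} {a b : T → GL (Fin m) F}
    (h : WrW g σ a) (h' : WrW g' τ b) :
    WrW (g * g') (σ * τ) (fun l => a l * b (σ.symm l)) := fun u => by
  rw [ap_mul, h', h]
  exact congrArg pv (funext fun l => (ap_mul _ _ _).symm)

lemma WrW.inv {g : GL (T → Fin m) F} {σ : Equiv.Perm T} {a : T → GL (Fin m) F} (h : WrW g σ a) :
    WrW g⁻¹ σ⁻¹ (fun l => (a (σ l))⁻¹) := fun u => by
  refine ap_injective g ?_
  rw [ap_ap_inv, h]
  exact congrArg pv (funext fun l => by simp [Equiv.Perm.inv_def, ap_ap_inv])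

lemma wrW_slot (i : T) (a : GL (Fin m) F) : WrW (slot i a) 1 (Pi.mulSingle i a) := ap_slot_pv i a

lemma wrW_perm (σ : Equiv.Perm T) : WrW (F := F) (m := m) (perm σ) σ (fun _ => 1) := fun u => by
  simp [ap_perm_pv]

variable (T m F) in
/-- The elements acting factorwise after a permutation of the factors. -/
def wreath : Subgroup (GL (T → Fin m) F) where
  carrier := {g | ∃ σ a, WrW g σ a}
  one_mem' := ⟨1, fun _ => 1, fun u => by simp [Equiv.Perm.one_def]⟩
  mul_mem' := fun ⟨_, _, h⟩ ⟨_, _, h'⟩ => ⟨_, _, h.mul h'⟩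
  inv_mem' := fun ⟨_, _, h⟩ => ⟨_, _, h.inv⟩

lemma mem_wreath {g : GL (T → Fin m) F} : g ∈ wreath T m F ↔ ∃ σ a, WrW g σ a := Iff.rfl

lemma slot_mem_wreath (i : T) (a : GL (Fin m) F) : slot i a ∈ wreath T m F :=
  ⟨_, _, wrW_slot i a⟩

lemma root_mem_wreath (i : T) (v φ : Fin m → F) (h : φ ⬝ᵥ v = 0) :
    root i v φ h ∈ wreath T m F := slot_mem_wreath _ _

lemma perm_mem_wreath (σ : Equiv.Perm T) : perm σ ∈ wreath T m F := ⟨_, _, wrW_perm σ⟩

/-- `g` maps the factor `i` to the factor `j`. -/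
def Split (g : GL (T → Fin m) F) (i j : T) : Prop :=
  ∃ (a : GL (Fin m) F) (h : (Rest i m → F) ≃ₗ[F] (Rest j m → F)),
    ∀ v y, ap g (ten i v y) = ten j (ap a v) (h y)

/-- An element of the wreath product splits along every factor. -/
lemma WrW.split (hm : 1 ≤ m) {g : GL (T → Fin m) F} {σ : Equiv.Perm T} {a : T → GL (Fin m) F}
    (hg : WrW g σ a) (i : T) :
    ∃ h : (Rest i m → F) ≃ₗ[F] (Rest (σ i) m → F),
      ∀ v y, ap g (ten i v y) = ten (σ i) (ap (a (σ i)) v) (h y) := by
  set v₀ : Fin m → F := Pi.single ⟨0, hm⟩ 1 with hv₀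
  have hv₀0 : v₀ ≠ 0 := by simp [hv₀]
  obtain ⟨χ, hχ⟩ := exists_dot_eq_one (ap_ne_zero (a (σ i)) hv₀0)
  set h₀ : (Rest i m → F) →ₗ[F] (Rest (σ i) m → F) :=
    (con (σ i) χ).comp ((apEquiv g).toLinearMap.comp (ten i v₀)) with hh₀
  have hid : ∀ v y, ap g (ten i v y) = ten (σ i) (ap (a (σ i)) v) (h₀ y) := by
    intro v
    refine LinearMap.congr_fun (f := (apEquiv g).toLinearMap.comp (ten i v))
      (g := (ten (σ i) (ap (a (σ i)) v)).comp h₀)
      (LinearMap.pi_ext' fun r => LinearMap.ext_ring ?_)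
    have key : ∀ w : Fin m → F, ap g (ten i w (Pi.single r 1)) =
        ten (σ i) (ap (a (σ i)) w) (pv fun l : {l : T // l ≠ σ i} =>
          ap (a l) (if h : σ.symm l = i then 0 else Pi.single (r ⟨σ.symm l, h⟩) 1)) := by
      intro w
      rw [ten_single, hg, pv_eq_ten (σ i)]
      simp only [Equiv.symm_apply_apply, dite_true]
      congr 2
      funext l
      have hl : σ.symm l ≠ i := fun h => l.2 (σ.symm_apply_eq.1 h)
      rw [dif_neg hl, dif_neg hl]
    simp [hh₀, key, hχ]
  refine ⟨LinearMap.linearEquivOfInjective h₀ ?_ (by rw [finrank_rest, finrank_rest]), fun v y => ?_⟩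
  · intro y y' h
    refine ten_injective i hv₀0 (ap_injective g ?_)
    rw [hid, hid, h]
  · rw [hid]; rfl

lemma split_of_wreath (hm : 1 ≤ m) {g : GL (T → Fin m) F} {σ : Equiv.Perm T}
    {a : T → GL (Fin m) F} (hg : WrW g σ a) (i : T) : Split g i (σ i) :=
  ⟨_, hg.split hm i⟩

/-- A split element carries slices to slices. -/
lemma Split.map_slice {g : GL (T → Fin m) F} {i j : T} {a : GL (Fin m) F}
    {h : (Rest i m → F) ≃ₗ[F] (Rest j m → F)}
    (hg : ∀ v y, ap g (ten i v y) = ten j (ap a v) (h y)) (v : Fin m → F) :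
    (slice i v).map (apEquiv g).toLinearMap = slice j (ap a v) := by
  refine le_antisymm ?_ ?_
  · rintro _ ⟨_, ⟨y, rfl⟩, rfl⟩
    exact ⟨h y, (hg v y).symm⟩
  · rintro _ ⟨y, rfl⟩
    exact ⟨ten i v (h.symm y), ten_mem_slice _ _ _, by simp [hg]⟩

omit [Fintype T] [DecidableEq T] in
lemma exists_dot_of_notMem {U : Submodule F (Fin m → F)} {x : Fin m → F} (hx : x ∉ U) :
    ∃ φ : Fin m → F, (∀ u ∈ U, φ ⬝ᵥ u = 0) ∧ φ ⬝ᵥ x = 1 := by
  obtain ⟨φ, hφ, hφx⟩ := exists_functional_eq_one hx
  have h : ∀ u, (fun c => φ (Pi.single c 1)) ⬝ᵥ u = φ u := fun u => by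
    conv_rhs => rw [pi_eq_sum_univ' u]
    simp [dotProduct, map_sum, mul_comm]
  exact ⟨fun c => φ (Pi.single c 1), fun u hu => (h u).trans (hφ u hu), (h x).trans hφx⟩

/-- If `a ⊗ h` moves at most a slice and `a` is not scalar then `h` is. -/
lemma scalar_of_finrank_mov (hm : 3 ≤ m) {g : GL (T → Fin m) F} {i : T} {a : GL (Fin m) F}
    {h : (Rest i m → F) ≃ₗ[F] (Rest i m → F)} (hg : ∀ v y, ap g (ten i v y) = ten i (ap a v) (h y))
    (hd : Module.finrank F (mov g) ≤ sdim T m) {u : Fin m → F}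
    (hu : ap a u ∉ Submodule.span F {u}) : ∃ c : F, ∀ y, h y = c • y := by
  have hu' : u ∉ Submodule.span F {ap a u} := by
    intro h'
    obtain ⟨c, hc⟩ := Submodule.mem_span_singleton.1 h'
    refine hu (Submodule.mem_span_singleton.2 ⟨c⁻¹, ?_⟩)
    have hc0 : c ≠ 0 := fun h0 => by
      rw [h0, zero_smul] at hc
      exact hu (by rw [← hc, ap_zero]; exact zero_mem _)
    nth_rw 1 [← hc]
    rw [inv_smul_smul₀ hc0]
  obtain ⟨φ, hφ, hφu⟩ := exists_dot_of_notMem hu'
  have hφa : φ ⬝ᵥ ap a u = 0 := hφ _ (Submodule.mem_span_singleton_self _)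
  set D : (Rest i m → F) →ₗ[F] ((T → Fin m) → F) :=
    ((apEquiv g).toLinearMap - LinearMap.id).comp (ten i u) with hD
  have hDinj : Function.Injective D := by
    intro y y' hyy
    have := congrArg (con i φ) hyy
    simpa [hD, hg, hφa, hφu] using this
  have hle : LinearMap.range D ≤ mov g := LinearMap.range_comp_le_range _ _
  have heq : LinearMap.range D = mov g := Submodule.eq_of_le_of_finrank_le hle (by
    rw [LinearMap.finrank_range_of_inj hDinj, finrank_rest]; exact hd)
  obtain ⟨ψ, hψ0, hψu, hψa⟩ := exists_ne_zero_dot_two hm u (ap a u)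
  obtain ⟨u', hu'1⟩ := exists_dot_eq_one hψ0
  rw [dotProduct_comm] at hu'1
  have hkey : ∀ y, (ψ ⬝ᵥ ap a u') • h y = y := by
    intro y
    obtain ⟨y', hy'⟩ : ap g (ten i u' y) - ten i u' y ∈ LinearMap.range D := heq ▸ sub_mem_mov _ _
    have := congrArg (con i ψ) hy'
    simp [hD, hg, hψu, hψa, hu'1] at this
    exact sub_eq_zero.1 this.symm
  refine ⟨(ψ ⬝ᵥ ap a u')⁻¹, fun y => ?_⟩
  by_cases hc : ψ ⬝ᵥ ap a u' = 0
  · have hy := hkey y
    rw [hc, zero_smul] at hy
    simp [← hy]
  · conv_rhs => rw [← hkey y, inv_smul_smul₀ hc]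

/-- An element without permutation part moving at most a slice moves exactly a slice. -/
theorem mov_eq_slice (hm : 3 ≤ m) [Nonempty T] {g : GL (T → Fin m) F} {a : T → GL (Fin m) F}
    (hg : WrW g 1 a) (h1 : g ≠ 1) (hd : Module.finrank F (mov g) ≤ sdim T m) :
    ∃ l v, v ≠ 0 ∧ mov g = slice l v := by
  have hpos : 0 < sdim T m := by
    have : 0 < m := by omega
    simp only [sdim]; positivity
  by_cases hall : ∀ l, ∀ u, ap (a l) u ∈ Submodule.span F {u}
  · exfalso
    have hsc : ∀ l, ∃ c : F, ∀ u, ap (a l) u = c • u := fun l =>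
      exists_scalar (B := (apEquiv (a l)).toLinearMap) fun u => by
        obtain ⟨s, hs⟩ := Submodule.mem_span_singleton.1 (hall l u)
        exact ⟨s, hs.symm⟩
    choose c hc using hsc
    set C := ∏ l, c l with hC
    have hsm : ∀ z, ap g z = C • z := by
      refine LinearMap.congr_fun (ext_pv (f := (apEquiv g).toLinearMap) (f' := C • LinearMap.id)
        fun u => funext fun x => ?_)
      simp only [LinearEquiv.coe_coe, apEquiv_apply, hg u, pv, hc, LinearMap.smul_apply,
        LinearMap.id_apply, Pi.smul_apply, smul_eq_mul, Finset.prod_mul_distrib, hC]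
      simp [Equiv.Perm.one_def]
    by_cases hC1 : C = 1
    · exact h1 (gl_ext fun z => by rw [hsm, hC1, one_smul, ap_one])
    · have htop : mov g = ⊤ := by
        refine eq_top_iff.2 fun z _ => ⟨(C - 1)⁻¹ • z, ?_⟩
        simp only [LinearMap.sub_apply, LinearEquiv.coe_coe, apEquiv_apply, LinearMap.id_apply, hsm]
        rw [smul_smul, ← sub_smul, ← sub_one_mul, mul_inv_cancel₀ (sub_ne_zero.2 hC1), one_smul]
      rw [htop, finrank_top, finrank_whole] at hd
      nlinarith
  · push Not at hall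
    obtain ⟨l, u, hu⟩ := hall
    obtain ⟨h, hh⟩ : ∃ h : (Rest l m → F) ≃ₗ[F] (Rest l m → F),
        ∀ v y, ap g (ten l v y) = ten l (ap (a l) v) (h y) := hg.split (by omega) l
    obtain ⟨c, hc⟩ := scalar_of_finrank_mov hm (i := l) hh hd hu
    set w := c • ap (a l) u - u with hw
    have hgw : ∀ y, ap g (ten l u y) - ten l u y = ten l w y := fun y => by
      rw [hh, hc, map_smul, hw, ten_sub_left, ten_smul_left]
    have hw0 : w ≠ 0 := fun h0 => by
      rw [hw, sub_eq_zero] at h0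
      refine hu ?_
      by_cases hc0 : c = 0
      · rw [hc0, zero_smul] at h0
        rw [← h0, ap_zero]
        exact zero_mem _
      · refine Submodule.mem_span_singleton.2 ⟨c⁻¹, ?_⟩
        nth_rw 1 [← h0]
        rw [inv_smul_smul₀ hc0]
    refine ⟨l, w, hw0, (Submodule.eq_of_le_of_finrank_le ?_ ?_).symm⟩
    · rintro _ ⟨y, rfl⟩
      rw [← hgw]
      exact sub_mem_mov _ _
    · rw [finrank_slice l hw0]
      exact hd

/-- An element with a permutation part moving at most a slice exchanges two factors. -/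
theorem perm_eq_swap (hm : 3 ≤ m) {g : GL (T → Fin m) F} {σ : Equiv.Perm T}
    {a : T → GL (Fin m) F} (hg : WrW g σ a) (hd : Module.finrank F (mov g) ≤ sdim T m)
    (hσ : σ ≠ 1) : ∃ x y, x ≠ y ∧ σ = Equiv.swap x y := by
  classical
  obtain ⟨l₁, hl₁⟩ : ∃ l, σ l ≠ l := by
    by_contra h
    push Not at h
    exact hσ (Equiv.ext h)
  set l₂ := σ l₁ with hl₂
  by_contra hns
  obtain ⟨l₃, l₄, h34, h34', h24, h41, h31⟩ : ∃ l₃ l₄, σ l₃ = l₄ ∧ l₃ ≠ l₄ ∧ l₂ ≠ l₄ ∧
      l₄ ≠ l₁ ∧ l₃ ≠ l₁ := by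
    by_cases h2 : σ l₂ = l₁
    · obtain ⟨l₃, hl₃, h31, h32⟩ : ∃ l, σ l ≠ l ∧ l ≠ l₁ ∧ l ≠ l₂ := by
        by_contra h
        push Not at h
        refine hns ⟨l₁, l₂, Ne.symm hl₁, Equiv.ext fun l => ?_⟩
        by_cases ha : l = l₁
        · rw [ha, Equiv.swap_apply_left]
        by_cases hb : l = l₂
        · rw [hb, Equiv.swap_apply_right, h2]
        rw [Equiv.swap_apply_of_ne_of_ne ha hb]
        by_contra hc
        exact hb (h l hc ha)
      refine ⟨l₃, σ l₃, rfl, Ne.symm hl₃, fun h => h31 ?_, fun h => h32 ?_, h31⟩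
      · exact (σ.injective (h : σ l₁ = σ l₃)).symm
      · exact σ.injective (h.trans h2.symm)
    · exact ⟨l₂, σ l₂, rfl, fun h => hl₁ (σ.injective h).symm, fun h => hl₁ (σ.injective h).symm,
        h2, hl₁⟩
  -- normalise two of the matrices
  set b₂ := a l₂ with hb₂
  set b₄ := a l₄ * (if l₃ = l₂ then b₂ else 1) with hb₄
  set B : T → GL (Fin m) F := Pi.mulSingle l₂ b₂ * Pi.mulSingle l₄ b₄ with hB
  have hBW : WrW (slot l₂ b₂ * slot l₄ b₄) 1 B := by
    have := (wrW_slot (T := T) l₂ b₂).mul (wrW_slot l₄ b₄)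
    rw [one_mul] at this
    exact this
  set k := (slot l₂ b₂ * slot l₄ b₄)⁻¹ * g * (slot l₂ b₂ * slot l₄ b₄) with hk
  have hk' := (hBW.inv.mul hg).mul hBW
  rw [← hk] at hk'
  simp only [inv_one, one_mul, mul_one] at hk'
  have hB1 : B l₁ = 1 := by
    simp [hB, Pi.mulSingle_eq_of_ne hl₁.symm, Pi.mulSingle_eq_of_ne (Ne.symm h41)]
  have hB2 : B l₂ = b₂ := by simp [hB, Pi.mulSingle_eq_of_ne h24]
  have hB3 : B l₃ = if l₃ = l₂ then b₂ else 1 := by
    split_ifs with h
    · rw [h, hB2]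
    · simp [hB, Pi.mulSingle_eq_of_ne h, Pi.mulSingle_eq_of_ne h34']
  have hB4 : B l₄ = b₄ := by simp [hB, Pi.mulSingle_eq_of_ne (Ne.symm h24)]
  have hdk : Module.finrank F (mov k) ≤ sdim T m := by
    have h := mov_conj (slot l₂ b₂ * slot l₄ b₄)⁻¹ g
    rw [inv_inv, ← hk] at h
    rw [h, LinearEquiv.finrank_map_eq]
    exact hd
  have hσ1 : σ.symm l₂ = l₁ := σ.symm_apply_apply l₁
  have hσ3 : σ.symm l₄ = l₃ := by rw [← h34, σ.symm_apply_apply]
  have hsupp : ∀ f x : T → Fin m, ap k (Pi.single f 1) x ≠ 0 → x l₂ = f l₁ ∧ x l₄ = f l₃ := by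
    intro f x hne
    rw [← pv_single, hk', pv, Finset.prod_ne_zero_iff] at hne
    have h2 := hne l₂ (Finset.mem_univ _)
    have h4 := hne l₄ (Finset.mem_univ _)
    by_cases hcase : l₃ = l₂ <;>
      simp [hcase, hσ1, hσ3, hB1, hB2, hB3, hB4, ← hb₂, hb₄, Equiv.Perm.one_def, mul_assoc, Pi.single_apply] at h2 h4
        <;> exact ⟨h2, by simp [hcase, h4]⟩
  let key : Fin m → Fin m → ℕ := fun p q => (p : ℕ) * m + q
  let Z := {f : T → Fin m // key (f l₂) (f l₄) < key (f l₁) (f l₃)}
  let ext' : (Z → F) →ₗ[F] ((T → Fin m) → F) :=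
    { toFun := fun c x => if h : key (x l₂) (x l₄) < key (x l₁) (x l₃) then c ⟨x, h⟩ else 0
      map_add' := fun c c' => funext fun x => by
        simp only [Pi.add_apply]; split_ifs <;> simp
      map_smul' := fun r c => funext fun x => by
        simp only [Pi.smul_apply, RingHom.id_apply]; split_ifs <;> simp }
  have hinj : Function.Injective (((apEquiv k).toLinearMap - LinearMap.id).comp ext') := by
    refine (injective_iff_map_eq_zero _).2 fun c hc => ?_
    by_contra hc0
    obtain ⟨f₀, hf₀⟩ := Function.ne_iff.1 hc0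
    set z := ext' c with hz
    have hkz : ap k z = z := sub_eq_zero.1 hc
    have hne : (Finset.univ.filter fun x => z x ≠ 0).Nonempty :=
      ⟨f₀.1, by simpa [hz, ext', f₀.2] using hf₀⟩
    obtain ⟨x, hx, hmin⟩ := Finset.exists_min_image _ (fun x => key (x l₂) (x l₄)) hne
    simp only [Finset.mem_filter, Finset.mem_univ, true_and] at hx hmin
    rw [← hkz] at hx
    conv at hx => rw [pi_eq_sum_univ' z]
    rw [show ap k (∑ f, z f • Pi.single f 1) = ∑ f, ap k (z f • Pi.single f 1) from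
      map_sum (apEquiv k).toLinearMap _ _, Finset.sum_apply] at hx
    obtain ⟨f, -, hf⟩ := Finset.exists_ne_zero_of_sum_ne_zero hx
    rw [ap_smul, Pi.smul_apply, smul_eq_mul] at hf
    have hzf : z f ≠ 0 := left_ne_zero_of_mul hf
    obtain ⟨e1, e3⟩ := hsupp f x (right_ne_zero_of_mul hf)
    have hfZ : key (f l₂) (f l₄) < key (f l₁) (f l₃) := by
      by_contra hn
      exact hzf (by simp [hz, ext', hn])
    have := hmin f hzf
    rw [← e1, ← e3] at hfZ
    omega
  have hcard : Fintype.card Z ≤ sdim T m := by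
    have h1 := LinearMap.finrank_range_of_inj hinj
    rw [Module.finrank_fintype_fun_eq_card] at h1
    rw [← h1]
    exact (Submodule.finrank_mono (LinearMap.range_comp_le_range _ _)).trans hdk
  let p0 : Fin m := ⟨0, by omega⟩
  let p1 : Fin m := ⟨1, by omega⟩
  let p2 : Fin m := ⟨2, by omega⟩
  have hl12 : l₁ ≠ l₂ := Ne.symm hl₁
  have hkey : ∀ {p q : Fin m}, p < q → ∀ r s : Fin m, key p r < key q s := by
    intro p q h r s
    have := r.2
    have h' : (p : ℕ) + 1 ≤ q := h
    simp only [key]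
    nlinarith
  let some' : Rest l₂ m → (T → Fin m) := fun r =>
    if r ⟨l₁, hl12⟩ = p0 then Function.update (ins l₂ p1 r) l₁ p2 else ins l₂ p0 r
  have hsome : ∀ r, key (some' r l₂) (some' r l₄) < key (some' r l₁) (some' r l₃) ∧
      some' r l₂ < some' r l₁ := by
    intro r
    have hlt : some' r l₂ < some' r l₁ := by
      simp only [some']
      split_ifs with h
      · simp [Function.update_of_ne (Ne.symm hl12), p1, p2, Fin.lt_def]
      · have h1 := ins_ne l₂ p0 r ⟨l₁, hl12⟩
        simp only at h1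
        rw [ins_same, h1]
        exact Fin.lt_def.2 (Nat.pos_of_ne_zero fun h0 => h (Fin.ext h0))
    exact ⟨hkey hlt _ _, hlt⟩
  have hsinj : Function.Injective some' := by
    intro r r' h
    have h2 := congrFun h l₂
    funext l
    have hl := congrFun h (l : T)
    simp only [some'] at h2 hl
    split_ifs at h2 hl with ha hb hb <;>
      simp [Function.update_of_ne (Ne.symm hl12), p0, p1, Fin.ext_iff] at h2
    · by_cases he : (l : T) = l₁
      · have : l = ⟨l₁, hl12⟩ := Subtype.ext he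
        rw [this, ha, hb]
      · rwa [Function.update_of_ne he, Function.update_of_ne he, ins_ne, ins_ne] at hl
    · rwa [ins_ne, ins_ne] at hl
  let f₁ : T → Fin m := fun l => if l = l₄ then p0 else p1
  have hf₁ : key (f₁ l₂) (f₁ l₄) < key (f₁ l₁) (f₁ l₃) ∧ f₁ l₂ = f₁ l₁ := by
    simp [f₁, key, h24, Ne.symm h41, h34', p0, p1]
  let emb : Option (Rest l₂ m) → Z := fun o =>
    o.elim ⟨f₁, hf₁.1⟩ fun r => ⟨some' r, (hsome r).1⟩
  have hemb : Function.Injective emb := by
    rintro (_ | r) (_ | r') h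
    · rfl
    · have h' : f₁ = some' r' := congrArg Subtype.val h
      exact absurd (by rw [← h']; exact hf₁.2) (ne_of_lt (hsome r').2)
    · have h' : some' r = f₁ := congrArg Subtype.val h
      exact absurd (by rw [h']; exact hf₁.2) (ne_of_lt (hsome r).2)
    · exact congrArg some (hsinj (congrArg Subtype.val h))
  have := Fintype.card_le_of_injective emb hemb
  rw [Fintype.card_option, card_rest] at this
  omega

end CfsgLib.Geometric.TPow
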