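import Cfsg.Agent.Lib.Geometric.Basic

/-!
Tensor powers indexed by functions `T → Fin m`: splitting off one factor, slices, contractions,
the factorwise embeddings, root elements and permutations of the factors.
-/

set_option autoImplicit false

namespace CfsgLib.Geometric.TPow

open Matrix
open scoped Kronecker

variable {T : Type} [Fintype T] [DecidableEq T] {m : ℕ} {F : Type*} [Field F]

/-- The indices of the tensor product of the factors other than `i`. -/
abbrev Rest (i : T) (m : ℕ) : Type := {l : T // l ≠ i} → Fin m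

/-- Forgetting the coordinate `i`. -/
def res (i : T) (x : T → Fin m) : Rest i m := fun l => x l

/-- Inserting a value at the coordinate `i`. -/
def ins (i : T) (a : Fin m) (r : Rest i m) : T → Fin m := (Equiv.funSplitAt i (Fin m)).symm (a, r)

@[simp] lemma ins_same (i : T) (a : Fin m) (r : Rest i m) : ins i a r i = a := by
  simp [ins, Equiv.funSplitAt, Equiv.piSplitAt]

@[simp] lemma ins_ne (i : T) (a : Fin m) (r : Rest i m) (l : {l : T // l ≠ i}) :
    ins i a r l = r l := by
  simp [ins, Equiv.funSplitAt, Equiv.piSplitAt, l.2]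

@[simp] lemma res_ins (i : T) (a : Fin m) (r : Rest i m) : res i (ins i a r) = r :=
  funext fun l => ins_ne i a r l

lemma ins_res (i : T) (a : Fin m) (x : T → Fin m) : ins i a (res i x) = Function.update x i a := by
  funext l
  by_cases h : l = i
  · subst h; simp
  · rw [Function.update_of_ne h]
    exact ins_ne i a (res i x) ⟨l, h⟩

@[simp] lemma res_update (i : T) (a : Fin m) (x : T → Fin m) :
    res i (Function.update x i a) = res i x := by
  rw [← ins_res, res_ins]

lemma ins_eta (i : T) (x : T → Fin m) : ins i (x i) (res i x) = x := by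
  rw [ins_res, Function.update_eq_self]

/-- The tensor product of a vector of the factor `i` with a tensor of the other factors. -/
def ten (i : T) (v : Fin m → F) : (Rest i m → F) →ₗ[F] ((T → Fin m) → F) where
  toFun y x := v (x i) * y (res i x)
  map_add' y y' := funext fun x => mul_add _ _ _
  map_smul' c y := funext fun x => mul_left_comm _ _ _

lemma ten_apply (i : T) (v : Fin m → F) (y : Rest i m → F) (x : T → Fin m) :
    ten i v y x = v (x i) * y (res i x) := rfl

lemma ten_add_left (i : T) (v v' : Fin m → F) (y : Rest i m → F) :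
    ten i (v + v') y = ten i v y + ten i v' y := funext fun _ => add_mul _ _ _

lemma ten_smul_left (i : T) (c : F) (v : Fin m → F) (y : Rest i m → F) :
    ten i (c • v) y = c • ten i v y := funext fun _ => mul_assoc _ _ _

lemma ten_sub_left (i : T) (v v' : Fin m → F) (y : Rest i m → F) :
    ten i (v - v') y = ten i v y - ten i v' y := funext fun _ => sub_mul _ _ _

@[simp] lemma ten_zero_left (i : T) (y : Rest i m → F) : ten i (0 : Fin m → F) y = 0 :=
  funext fun _ => zero_mul _

/-- The contraction of the factor `i` with `φ`. -/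
def con (i : T) (φ : Fin m → F) : ((T → Fin m) → F) →ₗ[F] (Rest i m → F) where
  toFun z r := ∑ a, φ a * z (ins i a r)
  map_add' z z' := funext fun r => by simp [mul_add, Finset.sum_add_distrib]
  map_smul' c z := funext fun r => by simp [Finset.mul_sum, mul_left_comm]

lemma con_apply (i : T) (φ : Fin m → F) (z : (T → Fin m) → F) (r : Rest i m) :
    con i φ z r = ∑ a, φ a * z (ins i a r) := rfl

lemma con_add_left (i : T) (φ ψ : Fin m → F) (z : (T → Fin m) → F) :
    con i (φ + ψ) z = con i φ z + con i ψ z :=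
  funext fun r => by simp [con_apply, add_mul, Finset.sum_add_distrib]

lemma con_smul_left (i : T) (c : F) (φ : Fin m → F) (z : (T → Fin m) → F) :
    con i (c • φ) z = c • con i φ z :=
  funext fun r => by simp [con_apply, Finset.mul_sum, mul_assoc]

lemma con_sub_left (i : T) (φ ψ : Fin m → F) (z : (T → Fin m) → F) :
    con i (φ - ψ) z = con i φ z - con i ψ z :=
  funext fun r => by simp [con_apply, sub_mul, Finset.sum_sub_distrib]

@[simp] lemma con_zero_left (i : T) (z : (T → Fin m) → F) : con i (0 : Fin m → F) z = 0 :=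
  funext fun r => by simp [con_apply]

@[simp] lemma con_ten (i : T) (φ v : Fin m → F) (y : Rest i m → F) :
    con i φ (ten i v y) = (φ ⬝ᵥ v) • y := by
  funext r
  simp [con_apply, ten_apply, dotProduct, Finset.sum_mul, mul_assoc]

@[simp] lemma con_single_apply (i : T) (a : Fin m) (z : (T → Fin m) → F) (r : Rest i m) :
    con i (Pi.single a 1) z r = z (ins i a r) := by
  simp [con_apply, Pi.single_apply]

/-- A tensor is determined by its contractions. -/
lemma eq_sum_ten (i : T) (z : (T → Fin m) → F) :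
    z = ∑ a, ten i (Pi.single a 1) (con i (Pi.single a 1) z) := by
  funext x
  simp [Finset.sum_apply, ten_apply, Pi.single_apply, ins_eta]

lemma ext_con {i : T} {z z' : (T → Fin m) → F}
    (h : ∀ a, con i (Pi.single a 1) z = con i (Pi.single a 1) z') : z = z' := by
  rw [eq_sum_ten i z, eq_sum_ten i z']
  exact Finset.sum_congr rfl fun a _ => by rw [h]

/-- Linear maps agreeing on the products are equal. -/
lemma ext_ten (i : T) {W : Type*} [AddCommGroup W] [Module F W]
    {f f' : ((T → Fin m) → F) →ₗ[F] W} (h : ∀ v y, f (ten i v y) = f' (ten i v y)) : f = f' := by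
  refine LinearMap.ext fun z => ?_
  rw [eq_sum_ten i z, map_sum, map_sum]
  exact Finset.sum_congr rfl fun a _ => h _ _

lemma exists_dot_eq_one {v : Fin m → F} (hv : v ≠ 0) : ∃ φ : Fin m → F, φ ⬝ᵥ v = 1 := by
  obtain ⟨a, ha⟩ := Function.ne_iff.1 hv
  exact ⟨Pi.single a (v a)⁻¹, by simp [single_dotProduct, inv_mul_cancel₀ ha]⟩

lemma ten_injective (i : T) {v : Fin m → F} (hv : v ≠ 0) :
    Function.Injective (ten (m := m) i v) := by
  intro y y' h
  obtain ⟨φ, hφ⟩ := exists_dot_eq_one hv
  simpa [hφ] using congrArg (con i φ) h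

lemma ten_inj_left (i : T) {v v' : Fin m → F} {y : Rest i m → F} (hy : y ≠ 0)
    (h : ten i v y = ten i v' y) : v = v' := by
  obtain ⟨r, hr⟩ := Function.ne_iff.1 hy
  funext a
  have := congrFun h (ins i a r)
  simp only [ten_apply, ins_same, res_ins] at this
  exact mul_right_cancel₀ hr this

/-- The slice `v ⊗ rest`. -/
def slice (i : T) (v : Fin m → F) : Submodule F ((T → Fin m) → F) := LinearMap.range (ten i v)

lemma ten_mem_slice (i : T) (v : Fin m → F) (y : Rest i m → F) : ten i v y ∈ slice i v :=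
  LinearMap.mem_range_self _ _

lemma slice_smul (i : T) {c : F} (hc : c ≠ 0) (v : Fin m → F) :
    slice i (c • v) = slice i v := by
  refine le_antisymm ?_ ?_
  · rintro _ ⟨y, rfl⟩
    rw [ten_smul_left, ← map_smul]
    exact ten_mem_slice _ _ _
  · rintro _ ⟨y, rfl⟩
    refine ⟨c⁻¹ • y, ?_⟩
    rw [map_smul, ten_smul_left, inv_smul_smul₀ hc]

variable (T m) in
/-- The dimension of a slice. -/
def sdim : ℕ := m ^ (Fintype.card T - 1)

lemma card_rest (i : T) : Fintype.card (Rest i m) = sdim T m := by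
  simp [sdim, Fintype.card_subtype_compl]

lemma finrank_rest (i : T) : Module.finrank F (Rest i m → F) = sdim T m := by
  rw [Module.finrank_fintype_fun_eq_card, card_rest]

lemma finrank_slice (i : T) {v : Fin m → F} (hv : v ≠ 0) :
    Module.finrank F (slice i v) = sdim T m := by
  rw [slice, LinearMap.finrank_range_of_inj (ten_injective i hv), finrank_rest]

lemma finrank_whole [Nonempty T] :
    Module.finrank F ((T → Fin m) → F) = m * sdim T m := by
  rw [Module.finrank_fintype_fun_eq_card, Fintype.card_fun, Fintype.card_fin, sdim, ← pow_succ',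
    Nat.sub_add_cancel Fintype.card_pos]

lemma mem_slice_iff (i : T) {v : Fin m → F} (hv : v ≠ 0) {z : (T → Fin m) → F} :
    z ∈ slice i v ↔ ∀ φ : Fin m → F, φ ⬝ᵥ v = 0 → con i φ z = 0 := by
  constructor
  · rintro ⟨y, rfl⟩ φ hφ
    simp [hφ]
  · intro h
    obtain ⟨χ, hχ⟩ := exists_dot_eq_one hv
    refine ⟨con i χ z, ext_con (i := i) fun a => ?_⟩
    have := h (Pi.single a 1 - v a • χ) (by simp [sub_dotProduct, hχ])
    rw [con_sub_left, con_smul_left, sub_eq_zero] at this
    simp [this, single_dotProduct]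

/-- A product matrix on the factor `i` and the others. -/
def slot (i : T) : GL (Fin m) F →* GL (T → Fin m) F :=
  Units.map
    { toFun := fun X : Matrix (Fin m) (Fin m) F => Matrix.reindexAlgEquiv F F
        (Equiv.funSplitAt i (Fin m)).symm (X ⊗ₖ (1 : Matrix (Rest i m) (Rest i m) F))
      map_one' := by rw [Matrix.one_kronecker_one, map_one]
      map_mul' := fun X Y => by rw [← map_mul, ← Matrix.mul_kronecker_mul, mul_one] }

lemma det_slot (i : T) {a : GL (Fin m) F} (ha : a ∈ Cfsg.Geo.specialLinear (Fin m) F) :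
    slot i a ∈ Cfsg.Geo.specialLinear (T → Fin m) F := by
  rw [mem_specialLinear_iff] at ha ⊢
  change (Matrix.reindexAlgEquiv F F (Equiv.funSplitAt i (Fin m)).symm
    ((a : Matrix (Fin m) (Fin m) F) ⊗ₖ (1 : Matrix (Rest i m) (Rest i m) F))).det = 1
  rw [Matrix.det_reindexAlgEquiv, Matrix.det_kronecker, ha]
  simp

@[simp] lemma slot_ten (i : T) (a : GL (Fin m) F) (v : Fin m → F) (y : Rest i m → F) :
    ap (slot i a) (ten i v y) = ten i (ap a v) y := by
  funext x
  change (Matrix.reindexAlgEquiv F F (Equiv.funSplitAt i (Fin m)).symm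
    ((a : Matrix (Fin m) (Fin m) F) ⊗ₖ (1 : Matrix (Rest i m) (Rest i m) F)) *ᵥ ten i v y) x = _
  simp only [Matrix.mulVec, dotProduct, Matrix.reindexAlgEquiv_apply, Matrix.reindex_apply,
    Matrix.submatrix_apply, Equiv.symm_symm]
  rw [← (Equiv.funSplitAt i (Fin m)).symm.sum_comp, Fintype.sum_prod_type]
  have hx : ∀ b r, (Equiv.funSplitAt i (Fin m)).symm (b, r) = ins i b r := fun _ _ => rfl
  have hxi : (Equiv.funSplitAt i (Fin m)) x = (x i, res i x) := rfl
  simp only [Equiv.apply_symm_apply]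
  simp only [hx, hxi, Matrix.kroneckerMap_apply, Matrix.one_apply, ten_apply, ins_same, res_ins,
    mul_ite, mul_one, mul_zero, ite_mul, zero_mul, Finset.sum_ite_eq, Finset.mem_univ, if_true,
    ap_def, Matrix.mulVec, dotProduct, Finset.sum_mul]
  exact Finset.sum_congr rfl fun _ _ => (mul_assoc _ _ _).symm

lemma ap_slot_apply (i : T) (a : GL (Fin m) F) (z : (T → Fin m) → F) (x : T → Fin m) :
    ap (slot i a) z x =
      ∑ b, (a : Matrix (Fin m) (Fin m) F) (x i) b * z (Function.update x i b) := by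
  conv_lhs => rw [eq_sum_ten i z]
  rw [show ap (slot i a) (∑ c, ten i (Pi.single c 1) (con i (Pi.single c 1) z)) =
    ∑ c, ap (slot i a) (ten i (Pi.single c 1) (con i (Pi.single c 1) z)) from
      map_sum (apEquiv (slot i a)).toLinearMap _ _]
  simp only [slot_ten, Finset.sum_apply, ten_apply, con_single_apply, ins_res]
  refine Finset.sum_congr rfl fun c _ => ?_
  rw [ap_def, Matrix.mulVec_single_one]
  rfl

/-- The transvection of one factor. -/
def tvv (v φ : Fin m → F) (h : φ ⬝ᵥ v = 0) : GL (Fin m) F :=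
  tv v { toFun := fun x => φ ⬝ᵥ x
         map_add' := dotProduct_add φ
         map_smul' := fun c x => dotProduct_smul c φ x } h

@[simp] lemma ap_tvv (v φ : Fin m → F) (h : φ ⬝ᵥ v = 0) (x : Fin m → F) :
    ap (tvv v φ h) x = x + (φ ⬝ᵥ x) • v := ap_tv _ _ _ _

lemma tvv_mem (v φ : Fin m → F) (h : φ ⬝ᵥ v = 0) :
    tvv v φ h ∈ Cfsg.Geo.specialLinear (Fin m) F := tv_mem_specialLinear _ _ _

/-- The root element of the factor `i`. -/
def root (i : T) (v φ : Fin m → F) (h : φ ⬝ᵥ v = 0) : GL (T → Fin m) F := slot i (tvv v φ h)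

@[simp] lemma ap_root (i : T) (v φ : Fin m → F) (h : φ ⬝ᵥ v = 0) (z : (T → Fin m) → F) :
    ap (root i v φ h) z = z + ten i v (con i φ z) := by
  refine LinearMap.congr_fun (ext_ten i (f := (apEquiv (root i v φ h)).toLinearMap)
    (f' := LinearMap.id + (ten i v).comp (con i φ)) fun w y => ?_) z
  simp [root, ten_add_left, ten_smul_left]

lemma root_inv (i : T) (v φ : Fin m → F) (h : φ ⬝ᵥ v = 0) :
    (root i v φ h)⁻¹ = root i (-v) φ (by simp [h]) := by
  refine inv_eq_of_mul_eq_one_right (gl_ext fun z => ?_)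
  have hneg : ∀ y : Rest i m → F, ten i (-v) y = -ten i v y := fun y => by
    rw [show -v = (0 : Fin m → F) - v by simp, ten_sub_left, ten_zero_left, zero_sub]
  simp [ap_mul, h, hneg]

lemma root_mul (i : T) (v v' φ : Fin m → F) (h : φ ⬝ᵥ v = 0) (h' : φ ⬝ᵥ v' = 0) :
    root i v φ h * root i v' φ h' = root i (v + v') φ (by simp [h, h']) := by
  refine gl_ext fun z => ?_
  simp [ap_mul, h', ten_add_left]
  abel

lemma root_ne_one (i : T) {v φ : Fin m → F} (h : φ ⬝ᵥ v = 0) (hv : v ≠ 0) (hφ : φ ≠ 0)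
    [Nonempty (Rest i m)] : root i v φ h ≠ 1 := by
  obtain ⟨a, ha⟩ := Function.ne_iff.1 hφ
  intro he
  have h1 := congrArg (fun g => ap g (ten i (Pi.single a 1) (fun _ => (1 : F)))) he
  simp only [ap_root, ap_one, add_eq_left, con_ten, dotProduct_single, mul_one] at h1
  have h2 := ten_injective i hv (h1.trans (map_zero (ten i v)).symm)
  exact ha (by simpa using congrFun h2 (Classical.arbitrary _))

/-- The root subgroup of a slice. -/
def rootGroup (i : T) (w : Fin m → F) : Subgroup (GL (T → Fin m) F) where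
  carrier := {g | ∃ φ : Fin m → F, ∃ h : φ ⬝ᵥ w = 0, g = root i w φ h}
  one_mem' := ⟨0, by simp, gl_ext fun z => by simp⟩
  mul_mem' := by
    rintro _ _ ⟨φ, h, rfl⟩ ⟨ψ, h', rfl⟩
    refine ⟨φ + ψ, by simp [h, h'], gl_ext fun z => ?_⟩
    simp [ap_mul, h, con_add_left]
    abel
  inv_mem' := by
    rintro _ ⟨φ, h, rfl⟩
    refine ⟨-φ, by simp [h], inv_eq_of_mul_eq_one_right (gl_ext fun z => ?_)⟩
    have hneg : con i (-φ) z = -con i φ z := by
      rw [show -φ = (0 : Fin m → F) - φ by simp, con_sub_left, con_zero_left, zero_sub]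
    simp [ap_mul, h, hneg]

/-- The permutations of the factors. -/
def perm : Equiv.Perm T →* GL (T → Fin m) F where
  toFun σ := ofEquiv (LinearEquiv.funCongrLeft F F (Equiv.arrowCongr σ.symm (Equiv.refl (Fin m))))
  map_one' := gl_ext fun z => funext fun x => by
    simp [LinearEquiv.funCongrLeft_apply, LinearMap.funLeft_apply]
    rfl
  map_mul' σ τ := gl_ext fun z => funext fun x => by
    simp [ap_mul, LinearEquiv.funCongrLeft_apply, LinearMap.funLeft_apply]
    rfl

lemma ap_perm (σ : Equiv.Perm T) (z : (T → Fin m) → F) (x : T → Fin m) :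
    ap (perm σ) z x = z (x ∘ σ) := by
  simp [perm, LinearEquiv.funCongrLeft_apply, LinearMap.funLeft_apply]
  rfl

/-- The range of `g - 1`. -/
def mov (g : GL (T → Fin m) F) : Submodule F ((T → Fin m) → F) :=
  LinearMap.range ((apEquiv g).toLinearMap - LinearMap.id)

lemma sub_mem_mov (g : GL (T → Fin m) F) (z : (T → Fin m) → F) : ap g z - z ∈ mov g :=
  ⟨z, rfl⟩

lemma mov_le_iff {g : GL (T → Fin m) F} {R : Submodule F ((T → Fin m) → F)} :
    mov g ≤ R ↔ ∀ z, ap g z - z ∈ R := by
  refine ⟨fun h z => h (sub_mem_mov g z), fun h => ?_⟩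
  rintro _ ⟨z, rfl⟩
  exact h z

lemma mov_conj (g k : GL (T → Fin m) F) :
    mov (g * k * g⁻¹) = (mov k).map (apEquiv g).toLinearMap := by
  refine le_antisymm (mov_le_iff.2 fun z => ?_) ?_
  · refine ⟨ap k (ap g⁻¹ z) - ap g⁻¹ z, sub_mem_mov _ _, ?_⟩
    simp [ap_mul, ap_sub, ap_ap_inv]
  · rintro _ ⟨_, ⟨z, rfl⟩, rfl⟩
    have := sub_mem_mov (g * k * g⁻¹) (ap g z)
    simpa [ap_mul, ap_sub, ap_inv_ap] using this

lemma mov_root (i : T) {v φ : Fin m → F} (h : φ ⬝ᵥ v = 0) (hφ : φ ≠ 0) :
    mov (root i v φ h) = slice i v := by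
  refine le_antisymm (mov_le_iff.2 fun z => by simp [ten_mem_slice]) ?_
  rintro _ ⟨y, rfl⟩
  obtain ⟨χ, hχ⟩ := exists_dot_eq_one hφ
  refine ⟨ten i χ y, ?_⟩
  simp [dotProduct_comm φ χ, hχ]

/-- The subgroup of elements moving vectors into `R` only. -/
def movInto (R : Submodule F ((T → Fin m) → F)) : Subgroup (GL (T → Fin m) F) where
  carrier := {g | ∀ z, ap g z - z ∈ R}
  one_mem' z := by simp
  mul_mem' := by
    intro a b ha hb z
    rw [ap_mul, ← sub_add_sub_cancel _ (ap b z)]
    exact R.add_mem (ha _) (hb _)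
  inv_mem' := by
    intro a ha z
    have := R.neg_mem (ha (ap a⁻¹ z))
    rwa [neg_sub, ap_ap_inv] at this

lemma mem_movInto {R : Submodule F ((T → Fin m) → F)} {g : GL (T → Fin m) F} :
    g ∈ movInto R ↔ ∀ z, ap g z - z ∈ R := Iff.rfl

lemma ap_mem_of_movInto {R : Submodule F ((T → Fin m) → F)} {g : GL (T → Fin m) F}
    (hg : g ∈ movInto R) {z : (T → Fin m) → F} (hz : z ∈ R) : ap g z ∈ R := by
  simpa using R.add_mem (hg z) hz

/-- Two independent conditions leave a non-zero functional if there is room. -/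
lemma exists_ne_zero_dot {k : ℕ} (hk : k < m) (v : Fin k → Fin m → F) :
    ∃ φ : Fin m → F, φ ≠ 0 ∧ ∀ j, φ ⬝ᵥ v j = 0 := by
  have hker : LinearMap.ker (Matrix.mulVecLin (Matrix.of v)) ≠ ⊥ :=
    LinearMap.ker_ne_bot_of_finrank_lt (by simpa using hk)
  obtain ⟨φ, hφ, hφ0⟩ := Submodule.exists_mem_ne_zero_of_ne_bot hker
  refine ⟨φ, hφ0, fun j => ?_⟩
  rw [dotProduct_comm]
  exact congrFun hφ j

lemma exists_ne_zero_dot_two (hm : 3 ≤ m) (u v : Fin m → F) :
    ∃ φ : Fin m → F, φ ≠ 0 ∧ φ ⬝ᵥ u = 0 ∧ φ ⬝ᵥ v = 0 := by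
  obtain ⟨φ, h0, h⟩ := exists_ne_zero_dot (show 2 < m by omega) ![u, v]
  exact ⟨φ, h0, h 0, h 1⟩

lemma exists_ne_zero_dot_one (hm : 2 ≤ m) (u : Fin m → F) :
    ∃ φ : Fin m → F, φ ≠ 0 ∧ φ ⬝ᵥ u = 0 := by
  obtain ⟨φ, h0, h⟩ := exists_ne_zero_dot (show 1 < m by omega) ![u]
  exact ⟨φ, h0, h 0⟩

end CfsgLib.Geometric.TPow
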