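import Cfsg.Agent.Lib.Geometric.TensorPower.Mixer

/-!
A set of linear maps of a tensor power closed under differences and under conjugation by the
factorwise special linear groups with a member not scalar contains a multiple of an elementary
nilpotent map of some set of factors.
-/

set_option autoImplicit false

namespace CfsgLib.Geometric.TPow

open Matrix

variable {T : Type} [Fintype T] [DecidableEq T] {m : ℕ} {F : Type*} [Field F]

/-- The entries of a linear map. -/
def ent (b : Module.End F ((T → Fin m) → F)) (f g : T → Fin m) : F := b (Pi.single g 1) f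

lemma ext_ent {b b' : Module.End F ((T → Fin m) → F)} (h : ∀ f g, ent b f g = ent b' f g) :
    b = b' :=
  LinearMap.pi_ext' fun g => LinearMap.ext_ring (funext fun f => h f g)

lemma ent_smul_one (c : F) (f g : T → Fin m) :
    ent (c • (1 : Module.End F ((T → Fin m) → F))) f g = if f = g then c else 0 := by
  simp [ent, Pi.single_apply]

lemma ent_sub (b b' : Module.End F ((T → Fin m) → F)) (f g : T → Fin m) :
    ent (b - b') f g = ent b f g - ent b' f g := rfl

/-- Conjugation by an invertible matrix. -/
def conjEnd (s : GL (T → Fin m) F) (b : Module.End F ((T → Fin m) → F)) :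
    Module.End F ((T → Fin m) → F) :=
  (apEquiv s).toLinearMap ∘ₗ b ∘ₗ (apEquiv s⁻¹).toLinearMap

@[simp] lemma conjEnd_apply (s : GL (T → Fin m) F) (b : Module.End F ((T → Fin m) → F))
    (z : (T → Fin m) → F) : conjEnd s b z = ap s (b (ap s⁻¹ z)) := rfl

/-- The change under conjugation by an elementary root element. -/
def dlt (l : T) (a c : Fin m) (h : a ≠ c) (b : Module.End F ((T → Fin m) → F)) :
    Module.End F ((T → Fin m) → F) :=
  conjEnd (root l (Pi.single a 1) (Pi.single c 1) (by simp [h.symm])) b - b

lemma ent_dlt (l : T) (a c : Fin m) (h : a ≠ c) (b : Module.End F ((T → Fin m) → F))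
    (f g : T → Fin m) :
    ent (dlt l a c h b) f g =
      (if f l = a then ent b (Function.update f l c) g else 0)
      - (if g l = c then ent b f (Function.update g l a) else 0)
      - (if f l = a ∧ g l = c then
          ent b (Function.update f l c) (Function.update g l a) else 0) := by
  have hinv : ap (root l (Pi.single a 1) (Pi.single c 1) (show Pi.single c (1 : F) ⬝ᵥ Pi.single a 1 = 0 by
      simp [h.symm]))⁻¹ (Pi.single g 1) =
      Pi.single g 1 - (if g l = c then Pi.single (Function.update g l a) 1 else 0) := by
    rw [root_inv, ap_root]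
    funext x
    simp only [Pi.add_apply, Pi.sub_apply, ten_apply, con_single_apply, ins_res, Pi.neg_apply,
      Pi.single_apply]
    by_cases hg : g l = c
    · rw [if_pos hg]
      by_cases hx : x = Function.update g l a
      · subst hx
        simp [← hg, sub_eq_add_neg]
      · rw [Pi.single_eq_of_ne hx]
        by_cases hxa : x l = a
        · have : Function.update x l c ≠ g := fun h' => hx (by
            rw [← h', Function.update_idem, ← hxa, Function.update_eq_self])
          simp [this]
        · simp [hxa]
    · rw [if_neg hg]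
      by_cases hxa : x l = a
      · have : Function.update x l c ≠ g := fun h' => hg (by rw [← h', Function.update_self])
        simp [this]
      · simp [hxa]
  simp only [ent, dlt, LinearMap.sub_apply, conjEnd_apply, hinv, map_sub, Pi.sub_apply, ap_root,
    Pi.add_apply, ten_apply, con_single_apply, ins_res, Pi.single_apply]
  by_cases h1 : f l = a <;> by_cases h2 : g l = c <;> simp [h1, h2] <;> abel

/-- The weight of a pair of indices. -/
def wgt (f g : T → Fin m) : ℕ := ∑ l, ((f l : ℕ) + (m - 1 - (g l : ℕ)))

lemma wgt_update_left_lt (f g : T → Fin m) (l : T) {c : Fin m} (h : f l < c) :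
    wgt f g < wgt (Function.update f l c) g := by
  refine Finset.sum_lt_sum (fun k _ => ?_) ⟨l, Finset.mem_univ l, by simpa using h⟩
  by_cases hk : k = l
  · subst hk
    simp only [Function.update_self]
    have := Fin.lt_def.1 h
    omega
  · simp [hk]

lemma wgt_update_right_lt (f g : T → Fin m) (l : T) {a : Fin m} (h : a < g l) :
    wgt f g < wgt f (Function.update g l a) := by
  have h' : (a : ℕ) < g l := h
  have := (g l).2
  refine Finset.sum_lt_sum (fun k _ => ?_) ⟨l, Finset.mem_univ l, by simp; omega⟩
  by_cases hk : k = l
  · subst hk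
    simp only [Function.update_self]
    omega
  · simp [hk]

/-- A function unchanged by single updates at the factors in `S` depends only on the others. -/
lemma eq_of_update {X : Type*} (S : Finset T) (φ : (T → Fin m) → X)
    (h : ∀ l ∈ S, ∀ f x, φ (Function.update f l x) = φ f) {f f' : T → Fin m}
    (hff : ∀ l, l ∉ S → f l = f' l) : φ f = φ f' := by
  have key : ∀ R : Finset T, R ⊆ S → φ (R.piecewise f' f) = φ f := by
    intro R
    induction R using Finset.induction with
    | empty => intro; simp
    | insert l R _ ih =>
      intro hR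
      rw [Finset.piecewise_insert, h l (hR (Finset.mem_insert_self l R)),
        ih fun k hk => hR (Finset.mem_insert_of_mem hk)]
  rw [← key S le_rfl]
  refine congrArg φ (funext fun l => ?_)
  by_cases hl : l ∈ S <;> simp [hl, hff]

/-- Extraction of an elementary nilpotent map. -/
theorem exists_mxL_mem (hm : 3 ≤ m) (B : Set (Module.End F ((T → Fin m) → F)))
    (hsub : ∀ b ∈ B, ∀ b' ∈ B, b - b' ∈ B)
    (hconj : ∀ b ∈ B, ∀ (l : T) (a : GL (Fin m) F), a ∈ Cfsg.Geo.specialLinear (Fin m) F →
      conjEnd (slot l a) b ∈ B)
    {b₀ : Module.End F ((T → Fin m) → F)} (hb₀ : b₀ ∈ B) (hns : ¬ ∃ c : F, b₀ = c • 1) :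
    ∃ (Q : Finset T) (c : F), Q.Nonempty ∧ c ≠ 0 ∧
      c • mxL Q (fun _ => (⟨0, by omega⟩ : Fin m)) (fun _ => ⟨1, by omega⟩) ∈ B := by
  classical
  have hdlt : ∀ b ∈ B, ∀ l a c (h : a ≠ c), dlt l a c h b ∈ B := fun b hb l a c h =>
    hsub _ (hconj b hb l _ (tvv_mem _ _ _)) b hb
  let Low : ℕ → Module.End F ((T → Fin m) → F) → Prop :=
    fun W b => ∀ f g, ent b f g ≠ 0 → wgt f g < W
  have hex : ∃ W, ∃ b ∈ B, (¬ ∃ c : F, b = c • 1) ∧ Low W b :=
    ⟨(Finset.univ.sup fun p : (T → Fin m) × (T → Fin m) => wgt p.1 p.2) + 1, b₀, hb₀, hns,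
      fun f g _ => Nat.lt_succ_of_le
        (Finset.le_sup (f := fun p : (T → Fin m) × (T → Fin m) => wgt p.1 p.2)
          (Finset.mem_univ (f, g)))⟩
  obtain ⟨b, hb, hbns, hlow⟩ := Nat.find_spec hex
  set W := Nat.find hex with hW
  -- the chosen member commutes with the upper root elements
  have hcomm : ∀ l (a c : Fin m) (h : a < c) f g, ent (dlt l a c h.ne b) f g = 0 := by
    intro l a c h f g
    by_contra hne
    have hlow' : Low (W - 1) (dlt l a c h.ne b) := by
      intro f' g' hne'
      rw [ent_dlt] at hne'
      have : ∃ f'' g'', ent b f'' g'' ≠ 0 ∧ wgt f' g' < wgt f'' g'' := by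
        by_contra hc
        push Not at hc
        refine hne' ?_
        have z1 : (if f' l = a then ent b (Function.update f' l c) g' else 0) = 0 := by
          split_ifs with h1
          · by_contra hn
            exact absurd (hc _ _ hn) (not_le.2 (wgt_update_left_lt _ _ _ (h1 ▸ h)))
          · rfl
        have z2 : (if g' l = c then ent b f' (Function.update g' l a) else 0) = 0 := by
          split_ifs with h1
          · by_contra hn
            exact absurd (hc _ _ hn) (not_le.2 (wgt_update_right_lt _ _ _ (h1 ▸ h)))
          · rfl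
        have z3 : (if f' l = a ∧ g' l = c then
            ent b (Function.update f' l c) (Function.update g' l a) else 0) = 0 := by
          split_ifs with h1
          · by_contra hn
            exact absurd (hc _ _ hn) (not_le.2 ((wgt_update_left_lt _ _ _ (h1.1 ▸ h)).trans
              (wgt_update_right_lt _ _ _ (h1.2 ▸ h))))
          · rfl
        rw [z1, z2, z3]
        simp
      obtain ⟨f'', g'', hn, hlt⟩ := this
      have := hlow f'' g'' hn
      omega
    have hW0 : 0 < W := by
      by_contra h0
      refine hbns ⟨0, ext_ent fun f g => ?_⟩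
      by_contra hn
      exact absurd (hlow f g (by rwa [ent_smul_one, ite_self] at hn)) (by omega)
    by_cases hsc : ∃ c₀ : F, dlt l a c h.ne b = c₀ • 1
    · obtain ⟨c₀, hc₀⟩ := hsc
      obtain ⟨r, -, hr⟩ : ∃ r ∈ (Finset.univ : Finset (Fin m)), r ∉ ({a, c} : Finset (Fin m)) :=
        Finset.exists_mem_notMem_of_card_lt_card (by
          rw [Finset.card_univ, Fintype.card_fin]
          exact Finset.card_le_two.trans_lt (by omega))
      simp only [Finset.mem_insert, Finset.mem_singleton, not_or] at hr
      have h0 := ent_dlt l a c h.ne b (fun _ => r) (fun _ => r)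
      rw [hc₀, ent_smul_one, if_pos rfl] at h0
      simp [hr.1, hr.2] at h0
      rw [hc₀, ent_smul_one, h0] at hne
      simp at hne
    · exact Nat.find_min hex (show W - 1 < W by omega) ⟨_, hdlt b hb l a c h.ne, hsc, hlow'⟩
  let z0 : Fin m := ⟨0, by omega⟩
  let z1 : Fin m := ⟨1, by omega⟩
  let zL : Fin m := ⟨m - 1, by omega⟩
  have hz01 : z0 ≠ z1 := by simp [z0, z1]
  have hz0L : z0 ≠ zL := fun h => by simp [z0, zL, Fin.ext_iff] at h; omega
  have hz1L : zL ≠ z1 := fun h => by simp [z1, zL, Fin.ext_iff] at h; omega
  have hpos : ∀ x : Fin m, x ≠ z0 → z0 < x := fun x h =>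
    Fin.lt_def.2 (Nat.pos_of_ne_zero fun h' => h (Fin.ext h'))
  have hlast : ∀ x : Fin m, x ≠ zL → x < zL := fun x h => by
    refine Fin.lt_def.2 ?_
    have h1 := x.2
    have h2 : (x : ℕ) ≠ m - 1 := fun h' => h (Fin.ext h')
    simp only [zL]
    omega
  have hoff : ∀ f g, ent b f g ≠ 0 → ∀ l, f l ≠ g l → f l = z0 ∧ g l = zL := by
    intro f g hne l hl
    constructor
    · by_contra hf
      have := hcomm l z0 (f l) (hpos _ hf) (Function.update f l z0) g
      rw [ent_dlt] at this
      simp [Ne.symm hl] at this
      exact hne this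
    · by_contra hg
      have := hcomm l (g l) zL (hlast _ hg) f (Function.update g l zL)
      rw [ent_dlt] at this
      simp [hl] at this
      exact hne this
  have hdiag : ∀ l f g x y, ent b (Function.update f l x) (Function.update g l x) =
      ent b (Function.update f l y) (Function.update g l y) := by
    intro l f g
    have key : ∀ x y, x < y → ent b (Function.update f l y) (Function.update g l y) =
        ent b (Function.update f l x) (Function.update g l x) := by
      intro x y hxy
      have h := hcomm l x y hxy (Function.update f l x) (Function.update g l y)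
      rw [ent_dlt] at h
      have h3 : ent b (Function.update f l y) (Function.update g l x) = 0 := by
        by_contra hn
        have := (hoff _ _ hn l (by simp [hxy.ne'])).1
        rw [Function.update_self] at this
        subst this
        simp [z0, Fin.lt_def] at hxy
      simp [h3] at h
      exact sub_eq_zero.1 h
    intro x y
    rcases lt_trichotomy x y with h | h | h
    · exact (key x y h).symm
    · rw [h]
    · exact key y x h
  -- a largest set of factors where the chosen member is off the diagonal
  have hnd : ∃ f g, ent b f g ≠ 0 ∧ f ≠ g := by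
    by_contra hc
    push Not at hc
    refine hbns ⟨ent b (fun _ => z0) (fun _ => z0), ext_ent fun f g => ?_⟩
    rw [ent_smul_one]
    split_ifs with hfg
    · subst hfg
      refine eq_of_update Finset.univ (fun f => ent b f f) (fun l _ f x => ?_)
        fun l hl => absurd (Finset.mem_univ l) hl
      have := hdiag l f f x (f l)
      simpa using this
    · by_contra hn
      exact hfg (hc f g hn)
  obtain ⟨⟨f₀, g₀⟩, hmem, hmax⟩ := Finset.exists_max_image
    (Finset.univ.filter fun p : (T → Fin m) × (T → Fin m) => ent b p.1 p.2 ≠ 0 ∧ p.1 ≠ p.2)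
    (fun p => (Finset.univ.filter fun l => p.1 l ≠ p.2 l).card)
    (by obtain ⟨f, g, h⟩ := hnd; exact ⟨(f, g), by simpa using h⟩)
  simp only [Finset.mem_filter, Finset.mem_univ, true_and] at hmem hmax
  set S := Finset.univ.filter fun l => f₀ l ≠ g₀ l with hS
  have hext : ∀ Q : Finset T, ∃ d ∈ B, ∀ f g, ent d f g =
      (-1) ^ Q.card *
        if ∀ l ∈ Q, f l = z0 ∧ g l = z1 then ent b f (Q.piecewise (fun _ => zL) g) else 0 := by
    intro Q
    induction Q using Finset.induction with
    | empty => exact ⟨b, hb, fun f g => by simp⟩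
    | insert l Q hlQ ih =>
      obtain ⟨d, hd, hdf⟩ := ih
      refine ⟨dlt l zL z1 hz1L d, hdlt d hd l zL z1 hz1L, fun f g => ?_⟩
      rw [ent_dlt, hdf, hdf, hdf, Finset.card_insert_of_notMem hlQ]
      have hupd : ∀ (u : T → Fin m) (x : Fin m), ∀ k ∈ Q, Function.update u l x k = u k :=
        fun u x k hk => Function.update_of_ne (fun h : k = l => hlQ (h ▸ hk)) _ _
      have hc1 : ∀ x y, ((∀ k ∈ Q, Function.update f l x k = z0 ∧ Function.update g l y k = z1) ↔
          ∀ k ∈ Q, f k = z0 ∧ g k = z1) := fun x y =>
        forall₂_congr fun k hk => by rw [hupd f x k hk, hupd g y k hk]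
      have hc2 : ∀ x, ((∀ k ∈ Q, Function.update f l x k = z0 ∧ g k = z1) ↔
          ∀ k ∈ Q, f k = z0 ∧ g k = z1) := fun x =>
        forall₂_congr fun k hk => by rw [hupd f x k hk]
      have hc3 : ∀ y, ((∀ k ∈ Q, f k = z0 ∧ Function.update g l y k = z1) ↔
          ∀ k ∈ Q, f k = z0 ∧ g k = z1) := fun y =>
        forall₂_congr fun k hk => by rw [hupd g y k hk]
      have hpw : ∀ y, Q.piecewise (fun _ => zL) (Function.update g l y) =
          Function.update (Q.piecewise (fun _ => zL) g) l y := fun y => by
        funext k
        by_cases hkl : k = l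
        · subst hkl; simp [hlQ]
        · by_cases hk : k ∈ Q <;> simp [hk, hkl]
      simp only [hc1, hc2, hc3, hpw, Finset.forall_mem_insert, Finset.piecewise_insert]
      by_cases hQ : ∀ k ∈ Q, f k = z0 ∧ g k = z1
      swap
      · simp [eq_false hQ]
      simp only [eq_true hQ, if_true, and_true]
      set g' := Q.piecewise (fun _ => zL) g with hg'
      have hg'l : g' l = g l := by simp [hg', hlQ]
      have T3 : ent b (Function.update f l z1) (Function.update g' l zL) = 0 := by
        by_contra hn
        have := (hoff _ _ hn l (by simp [hz1L.symm])).1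
        rw [Function.update_self] at this
        exact hz01 this.symm
      have T1 : ent b (Function.update f l z1) g' ≠ 0 → g l = z1 := fun hn => by
        by_contra hg
        have := (hoff _ _ hn l (by simpa [hg'l] using Ne.symm hg)).1
        rw [Function.update_self] at this
        exact hz01 this.symm
      by_cases hfL : f l = zL
      · by_cases hg1 : g l = z1
        · have := hdiag l f g' z1 zL
          rw [← hfL, ← hg1] at this
          simp [hfL, hg1, Ne.symm hz0L, T3]
          rw [← hfL, ← hg1, Function.update_eq_self] at *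
          rw [show Function.update g' l (g l) = g' by rw [← hg'l, Function.update_eq_self]] at this
          linear_combination ((-1 : F) ^ Q.card) * this
        · have := not_not.1 fun h => hg1 (T1 h)
          simp [hfL, hg1, Ne.symm hz0L, this]
      · by_cases hg1 : g l = z1
        · by_cases hf0 : f l = z0
          · simp [hf0, hg1, hz0L, pow_succ]
          · have : ent b f (Function.update g' l zL) = 0 := by
              by_contra hn
              exact hf0 (hoff _ _ hn l (by simpa using hfL)).1
            simp [hfL, hg1, hf0, this]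
        · simp [hfL, hg1]
  obtain ⟨d, hd, hdf⟩ := hext S
  have hSne : S.Nonempty := by
    obtain ⟨l, hl⟩ := Function.ne_iff.1 hmem.2
    exact ⟨l, by simp [hS, hl]⟩
  refine ⟨S, (-1) ^ S.card * ent b f₀ g₀, hSne,
    mul_ne_zero (pow_ne_zero _ (neg_ne_zero.2 one_ne_zero)) hmem.1, ?_⟩
  have hS0 : ∀ l ∈ S, f₀ l = z0 ∧ g₀ l = zL := fun l hl =>
    hoff _ _ hmem.1 l (by simpa [hS] using hl)
  have hSout : ∀ l, l ∉ S → f₀ l = g₀ l := fun l hl => by simpa [hS] using hl
  suffices d = ((-1) ^ S.card * ent b f₀ g₀) •
      mxL S (fun _ => z0) (fun _ => z1) from this ▸ hd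
  refine ext_ent fun f g => ?_
  have hR : ent (((-1) ^ S.card * ent b f₀ g₀) •
      mxL S (fun _ => z0) (fun _ => z1)) f g =
      (-1) ^ S.card * ent b f₀ g₀ *
        if (∀ l ∈ S, f l = z0) ∧ S.piecewise (fun _ => z1) f = g then 1 else 0 := by
    simp [ent, mxL_apply, Pi.single_apply, ite_and]
  rw [hR, hdf]
  by_cases hc : ∀ l ∈ S, f l = z0 ∧ g l = z1
  swap
  · rw [if_neg hc, if_neg]
    · simp
    · rintro ⟨h1, h2⟩
      exact hc fun l hl => ⟨h1 l hl, by rw [← h2]; simp [hl]⟩
  rw [if_pos hc]
  set g' := S.piecewise (fun _ => zL) g with hg'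
  by_cases heq : S.piecewise (fun _ => z1) f = g
  · rw [if_pos ⟨fun l hl => (hc l hl).1, heq⟩, mul_one]
    congr 1
    have hfg : ∀ l, l ∉ S → f l = g l := fun l hl => by rw [← heq]; simp [hl]
    have := eq_of_update Sᶜ
      (fun u => ent b (S.piecewise (fun _ => z0) u) (S.piecewise (fun _ => zL) u))
      (fun l hl u x => by
        have hl' : l ∉ S := Finset.mem_compl.1 hl
        have hp : ∀ e : Fin m, S.piecewise (fun _ => e) (Function.update u l x) =
            Function.update (S.piecewise (fun _ => e) u) l x := fun e => by
          funext k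
          by_cases hkl : k = l
          · subst hkl; simp [hl']
          · by_cases hk : k ∈ S <;> simp [hk, hkl]
        rw [hp, hp, hdiag l _ _ x (u l)]
        congr 1 <;> funext k <;> by_cases hkl : k = l <;> simp [hkl, hl'])
      (f := S.piecewise f₀ f) (f' := f₀)
      (fun l hl => by simp at hl; simp [hl])
    convert this using 2
    · funext k
      by_cases hk : k ∈ S <;> simp [hk, (hc k), hfg]
    · funext k
      by_cases hk : k ∈ S <;> simp [hg', hk, hfg]
    · funext k
      by_cases hk : k ∈ S <;> simp [hk, (hS0 k), hSout]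
    · funext k
      by_cases hk : k ∈ S <;> simp [hk, (hS0 k), hSout]
  · rw [if_neg fun h => heq h.2, mul_zero, mul_eq_zero]
    right
    by_contra hn
    obtain ⟨l, hl⟩ : ∃ l, l ∉ S ∧ f l ≠ g l := by
      by_contra hno
      push Not at hno
      refine heq (funext fun l => ?_)
      by_cases hl : l ∈ S
      · simp [hl, (hc l hl).2]
      · simp [hl, hno l hl]
    have hsub : insert l S ⊆ Finset.univ.filter fun k => f k ≠ g' k := fun k hk => by
      simp only [Finset.mem_filter, Finset.mem_univ, true_and]
      rcases Finset.mem_insert.1 hk with rfl | hk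
      · simpa [hg', hl.1] using hl.2
      · simpa [hg', hk, (hc k hk).1] using hz0L
    have h1 := Finset.card_le_card hsub
    rw [Finset.card_insert_of_notMem hl.1] at h1
    have h2 := hmax (f, g') ⟨hn, fun h => by
      have := congrFun h l
      simp [hg', hl.1] at this
      exact hl.2 this⟩
    simp only at h2
    omega

end CfsgLib.Geometric.TPow
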