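import Cfsg.Agent.Lib.Geometric.TensorPower.SliceMap

/-!
An element of an overgroup without all elementary transvections carrying a slice to a slice lies in
the wreath product, given the dichotomy for one factor fewer.
-/

set_option autoImplicit false

namespace CfsgLib.Geometric.TPow

open Matrix

variable {T : Type} [Fintype T] [DecidableEq T] {m : ℕ} {F : Type*} [Field F]
variable {M : Subgroup (GL (T → Fin m) F)}

variable (T m F) in
/-- An overgroup holds all elementary transvections or lies in the wreath product. -/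
def Dichotomy : Prop :=
  ∀ M : Subgroup (GL (T → Fin m) F), Over M → Mixed M ∨ M ≤ wreath T m F

/-- With one factor everything acts factorwise. -/
lemma mem_wreath_of_card_eq_one (hT : Fintype.card T = 1) (g : GL (T → Fin m) F) :
    g ∈ wreath T m F := by
  obtain ⟨l₀, hl₀⟩ := Fintype.card_eq_one_iff.1 hT
  let e : (T → Fin m) ≃ Fin m :=
    { toFun := fun x => x l₀
      invFun := fun c _ => c
      left_inv := fun x => funext fun l => by rw [hl₀ l]
      right_inv := fun c => rfl }
  let E : (Fin m → F) ≃ₗ[F] ((T → Fin m) → F) := LinearEquiv.funCongrLeft F F e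
  have hpv : ∀ u : T → Fin m → F, pv u = E (u l₀) := fun u => funext fun x => by
    have hu : (Finset.univ : Finset T) = {l₀} := Finset.eq_singleton_iff_unique_mem.2
      ⟨Finset.mem_univ _, fun l _ => hl₀ l⟩
    simp [pv, hu, E, e, LinearEquiv.funCongrLeft_apply, LinearMap.funLeft_apply]
  refine ⟨1, fun _ => ofEquiv (E.trans ((apEquiv g).trans E.symm)), fun u => ?_⟩
  rw [hpv, hpv]
  simp [ap_ofEquiv, Equiv.Perm.one_def]

/-- An element splitting off a fixed factor, factorwise on the others, acts factorwise. -/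
lemma mem_wreath_of_split_self {g : GL (T → Fin m) F} {j : T} {a : GL (Fin m) F}
    {h : GL (Rest j m) F} (hg : ∀ v y, ap g (ten j v y) = ten j (ap a v) (ap h y))
    (hh : h ∈ wreath {l : T // l ≠ j} m F) : g ∈ wreath T m F := by
  obtain ⟨τ, b, hb⟩ := hh
  refine ⟨Equiv.Perm.ofSubtype τ, fun l => if hl : l = j then a else b ⟨l, hl⟩, fun u => ?_⟩
  have hj : (Equiv.Perm.ofSubtype τ).symm j = j := by
    rw [Equiv.symm_apply_eq, Equiv.Perm.ofSubtype_apply_of_not_mem τ (by simp)]
  have hne : ∀ l : {l : T // l ≠ j}, (Equiv.Perm.ofSubtype τ).symm l = (τ.symm l : T) := fun l => by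
    rw [Equiv.symm_apply_eq, Equiv.Perm.ofSubtype_apply_coe, Equiv.apply_symm_apply]
  rw [pv_eq_ten j u, hg, hb, pv_eq_ten j (fun l => ap _ (u _))]
  simp only [dif_pos rfl, hj]
  congr 2
  funext l
  rw [dif_neg l.2, hne]

lemma perm_ten {j : T} {σ : Equiv.Perm T} {τ : Equiv.Perm {l : T // l ≠ j}} (hσj : σ j = j)
    (hστ : ∀ l : {l : T // l ≠ j}, σ l = (τ l : T)) (v : Fin m → F) (y : Rest j m → F) :
    ap (perm σ) (ten j v y) = ten j v (ap (perm τ) y) := by
  funext x
  rw [ap_perm, ten_apply, ten_apply, ap_perm, Function.comp_apply, hσj]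
  congr 2
  funext l
  simp [res, hστ]

variable (M) in
/-- The actions on the other factors of the elements of `M` fixing the factor `j`. -/
def liftGroup (j : T) : Subgroup (GL (Rest j m) F) where
  carrier := {h | ∃ k ∈ M, ∃ a : GL (Fin m) F,
    ∀ v y, ap k (ten j v y) = ten j (ap a v) (ap h y)}
  one_mem' := ⟨1, M.one_mem, 1, fun v y => by simp⟩
  mul_mem' := fun ⟨k, hk, a, ha⟩ ⟨k', hk', a', ha'⟩ =>
    ⟨k * k', M.mul_mem hk hk', a * a', fun v y => by simp [ap_mul, ha, ha']⟩
  inv_mem' := fun ⟨k, hk, a, ha⟩ => ⟨k⁻¹, M.inv_mem hk, a⁻¹, fun v y =>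
    ap_injective k (by rw [ha, ap_ap_inv, ap_ap_inv, ap_ap_inv])⟩

lemma over_liftGroup (hM : Over M) (j : T) : Over (liftGroup M j) where
  slot_mem l a ha := ⟨slot (l : T) a, hM.slot_mem _ a ha, 1, fun v y => by
    rw [slot_ten_other, ap_one]⟩
  cyc_mem a b c hab hbc hac := ⟨perm (Equiv.swap (a : T) c * Equiv.swap (a : T) b),
    hM.cyc_mem a b c (Subtype.coe_injective.ne hab) (Subtype.coe_injective.ne hbc)
      (Subtype.coe_injective.ne hac), 1, fun v y => by
    rw [ap_one]
    refine perm_ten ?_ (fun l => ?_) v y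
    · simp [Equiv.swap_apply_of_ne_of_ne (Ne.symm a.2) (Ne.symm b.2),
        Equiv.swap_apply_of_ne_of_ne (Ne.symm a.2) (Ne.symm c.2)]
    · simp only [Equiv.Perm.mul_apply, Subtype.coe_injective.swap_apply]⟩

lemma mxL_ten (j : T) (P Q : T → Fin m) (v : Fin m → F) (y : Rest j m → F) :
    mxL (Finset.univ.erase j) P Q (ten j v y) =
      ten j v (mxL Finset.univ (res j P) (res j Q) y) := by
  funext x
  simp only [mxL_apply, ten_apply, mul_ite, mul_zero]
  refine if_congr ⟨fun h l _ => h l (by simp [l.2]), fun h l hl => ?_⟩ ?_ rfl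
  · exact h ⟨l, Finset.ne_of_mem_erase hl⟩ (Finset.mem_univ _)
  · rw [Finset.piecewise_eq_of_notMem _ _ _ (Finset.notMem_erase _ _)]
    congr 2
    funext l
    simp [res, l.2]

lemma ap_root_single {z z' : Fin m} (hz : z ≠ z') (l : T) (y : (T → Fin m) → F) :
    ap (root l (Pi.single z 1) (Pi.single z' 1) (by simp [hz.symm])) y =
      y + (1 : F) • mxL {l} (fun _ => z) (fun _ => z') y := by
  rw [ap_root, one_smul]
  congr 1
  funext x
  simp [ten_apply, mxL_apply, Pi.single_apply, con_single_apply, ins_res,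
    Finset.piecewise_singleton]

/-- All elementary transvections on the other factors give them all. -/
theorem mixed_of_liftGroup (hm : 3 ≤ m) (hM : Over M) {j : T} (hc : 3 ≤ Fintype.card T)
    (hK : Mixed (liftGroup M j)) : Mixed M := by
  have : Nonempty {l : T // l ≠ j} := by
    rw [← Fintype.card_pos_iff, Fintype.card_subtype_compl, Fintype.card_subtype_eq]
    omega
  obtain ⟨l₀⟩ := this
  let z0 : Fin m := ⟨0, by omega⟩
  let z1 : Fin m := ⟨1, by omega⟩
  let z2 : Fin m := ⟨2, by omega⟩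
  have h01 : z0 ≠ z1 := by simp [z0, z1]
  have h02 : z0 ≠ z2 := by simp [z0, z2]
  have h12 : z1 ≠ z2 := by simp [z1, z2]
  obtain ⟨k₀, ⟨k, hk, a, hka⟩, hk₀⟩ := hK (fun _ => z0) (fun _ => z1)
    (fun h => h01 (congrFun h l₀)) 1
  set t := tvv (Pi.single z1 (1 : F)) (Pi.single z2 1) (by simp [h12.symm]) with ht
  set u := k * slot (l₀ : T) t * k⁻¹ * (slot (l₀ : T) t)⁻¹ with hu
  have htM : slot (l₀ : T) t ∈ M := hM.slot_mem _ t (tvv_mem _ _ _)
  have huM : u ∈ M := M.mul_mem (M.mul_mem (M.mul_mem hk htM) (M.inv_mem hk)) (M.inv_mem htM)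
  have hkinv : ∀ v y, ap k⁻¹ (ten j v y) = ten j (ap a⁻¹ v) (ap k₀⁻¹ y) := fun v y =>
    ap_injective k (by rw [hka, ap_ap_inv, ap_ap_inv, ap_ap_inv])
  let Q : T → Fin m := fun l => if l = l₀ then z2 else z1
  refine mixed_of_hasMix hm hM (A := Finset.univ.erase j) (p := fun _ => z0) (q := Q) (c := 1)
    ⟨u, huM, fun z => ?_⟩ one_ne_zero ?_ fun l _ => ?_
  · refine LinearMap.congr_fun (ext_ten j (f := (apEquiv u).toLinearMap)
      (f' := LinearMap.id + (1 : F) • mxL (Finset.univ.erase j) (fun _ => z0) Q) fun v y => ?_) z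
    have hval : ap u (ten j v y) =
        ten j v (ap (k₀ * slot l₀ t * k₀⁻¹ * (slot l₀ t)⁻¹) y) := by
      rw [hu, ← map_inv, ← map_inv]
      simp only [ap_mul, slot_ten_other, hkinv, hka, ap_ap_inv]
    simp only [LinearEquiv.coe_coe, apEquiv_apply, LinearMap.add_apply, LinearMap.id_apply,
      LinearMap.smul_apply, hval, mxL_ten]
    rw [ap_comm (A := Finset.univ) (B := {l₀}) hk₀ (g' := slot l₀ t) (fun z => ap_root_single h12 l₀ z)
      (fun _ _ => rfl) (Finset.mem_univ l₀) h01 (Finset.mem_singleton_self l₀) h12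
      (Finset.mem_univ l₀) (Finset.mem_singleton_self l₀) h02.symm]
    rw [map_add, map_smul, mul_one, Finset.union_eq_left.2 (Finset.subset_univ _)]
    congr 3
    refine LinearMap.congr_fun (mxL_congr (fun l _ => by simp [res]) fun l _ => ?_) y
    by_cases hl : l = l₀
    · subst hl; simp [res, Q]
    · simp [res, Q, hl, Subtype.coe_inj]
  · rw [Finset.card_erase_of_mem (Finset.mem_univ j), Finset.card_univ]
    omega
  · simp only [Q]
    split_ifs <;> assumption

/-- An element carrying a slice to a slice acts factorwise. -/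
theorem mem_wreath_of_map_slice [Finite F] (hm : 3 ≤ m) (hT : 2 ≤ Fintype.card T) (hM : Over M)
    (hX : ¬ Mixed M)
    (IH : ∀ j : T, 3 ≤ Fintype.card T → Dichotomy {l : T // l ≠ j} m F)
    {g : GL (T → Fin m) F} (hg : g ∈ M) {i j : T} {w w' : Fin m → F} (hw : w ≠ 0) (hw' : w' ≠ 0)
    (h : (slice j w').map (apEquiv g).toLinearMap = slice i w) : g ∈ wreath T m F := by
  have hsplit := split_of_map_slice hm hM hX hg hw hw' h
  obtain ⟨π, hπ, hπi, hπM⟩ : ∃ π : Equiv.Perm T, perm π ∈ wreath T m F ∧ π i = j ∧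
      (3 ≤ Fintype.card T → perm (F := F) (m := m) π ∈ M) := by
    by_cases hij : i = j
    · exact ⟨1, perm_mem_wreath 1, by simp [hij], fun _ => by rw [map_one]; exact M.one_mem⟩
    by_cases hc : 3 ≤ Fintype.card T
    · obtain ⟨c, -, hc'⟩ : ∃ c ∈ (Finset.univ : Finset T), c ∉ ({i, j} : Finset T) :=
        Finset.exists_mem_notMem_of_card_lt_card (by
          rw [Finset.card_univ, Finset.card_pair hij]; omega)
      simp only [Finset.mem_insert, Finset.mem_singleton, not_or] at hc'
      exact ⟨_, perm_mem_wreath _, by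
        simp [Equiv.swap_apply_of_ne_of_ne (Ne.symm hij) (Ne.symm hc'.2)],
        fun _ => hM.cyc_mem i j c hij (Ne.symm hc'.2) (Ne.symm hc'.1)⟩
    · exact ⟨Equiv.swap i j, perm_mem_wreath _, Equiv.swap_apply_left _ _, fun h => absurd h hc⟩
  have hs' : Split (perm π * g) j j :=
    hsplit.trans (hπi ▸ split_of_wreath (by omega) (wrW_perm π) i)
  obtain ⟨a, e, he⟩ := hs'
  suffices hg' : perm π * g ∈ wreath T m F by
    simpa using (wreath T m F).mul_mem ((wreath T m F).inv_mem hπ) hg'
  have he' : ∀ v y, ap (perm π * g) (ten j v y) = ten j (ap a v) (ap (ofEquiv e) y) := fun v y => by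
    rw [he, ap_ofEquiv]
  refine mem_wreath_of_split_self he' ?_
  by_cases hc : 3 ≤ Fintype.card T
  · refine ((IH j hc (liftGroup M j) (over_liftGroup hM j)).resolve_left fun hK => ?_)
      ⟨_, M.mul_mem (hπM hc) hg, a, he'⟩
    exact hX (mixed_of_liftGroup hm hM hc hK)
  · refine mem_wreath_of_card_eq_one ?_ _
    rw [Fintype.card_subtype_compl, Fintype.card_subtype_eq]
    omega

end CfsgLib.Geometric.TPow
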