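import Cfsg.Agent.Lib.Geometric.TensorPower.Minimal
import Cfsg.Agent.Lib.Frobenius.Kernel
import Cfsg.Agent.Lib.Cores.FPF

/-!
An overgroup of the factorwise special linear groups and the cyclic exchanges of factors holds every
elementary transvection or lies in the wreath product: the root group of the first slice of a least
pair would act fixed-point-freely on a Frobenius kernel.
-/

set_option autoImplicit false

namespace CfsgLib.Geometric.TPow

open Matrix

variable {T : Type} [Fintype T] [DecidableEq T] {m : ℕ} {F : Type*} [Field F]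
variable {M : Subgroup (GL (T → Fin m) F)}

lemma isMulCommutative_rootGroup (i : T) (w : Fin m → F) :
    IsMulCommutative (rootGroup (m := m) i w) := by
  refine ⟨⟨?_⟩⟩
  rintro ⟨_, φ, hφ, rfl⟩ ⟨_, ψ, hψ, rfl⟩
  refine Subtype.ext (gl_ext fun z => ?_)
  simp [ap_mul, hφ, hψ]
  abel

/-- A root group of a slice is not cyclic. -/
lemma not_isCyclic_rootGroup (hm : 3 ≤ m) (i : T) {w : Fin m → F} (hw : w ≠ 0) :
    ¬ IsCyclic (rootGroup (m := m) i w) := by
  intro hcyc
  obtain ⟨⟨r, φ₀, hφ₀, rfl⟩, hgen⟩ := hcyc.exists_generator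
  have hne : Nonempty (Rest i m) := ⟨fun _ => ⟨0, by omega⟩⟩
  have key : perp w ≤ Submodule.span F {φ₀} := by
    intro φ hφ
    obtain ⟨n, hn⟩ := Subgroup.mem_zpowers_iff.1 (hgen ⟨root i w φ hφ, φ, hφ, rfl⟩)
    have hn' : (root i w φ₀ hφ₀) ^ n = root i w φ hφ := congrArg Subtype.val hn
    have hmem : root i w φ hφ ∈ Subgroup.closure {root i w φ₀ hφ₀} := by
      rw [← Subgroup.zpowers_eq_closure, ← hn']
      exact Subgroup.zpow_mem_zpowers _ _
    obtain ⟨c, hc⟩ : ∃ c : F, ∀ z, ap (root i w φ hφ) z = z + ten i w (con i (c • φ₀) z) := by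
      generalize root i w φ hφ = k at hmem
      induction hmem using Subgroup.closure_induction with
      | mem x hx => exact ⟨1, fun z => by rw [Set.mem_singleton_iff.1 hx, ap_root, one_smul]⟩
      | one => exact ⟨0, fun z => by simp⟩
      | mul x y _ _ hx hy =>
        obtain ⟨c, hc⟩ := hx
        obtain ⟨c', hc'⟩ := hy
        refine ⟨c + c', fun z => ?_⟩
        simp [ap_mul, hc, hc', hφ₀, add_smul, con_add_left, con_smul_left]
        abel
      | inv x _ hx =>
        obtain ⟨c, hc⟩ := hx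
        refine ⟨-c, fun z => ap_injective x ?_⟩
        rw [ap_ap_inv, hc]
        rw [show -c • φ₀ = (0 : Fin m → F) - c • φ₀ by simp, con_sub_left, con_zero_left]
        simp [hφ₀, con_smul_left]
    refine Submodule.mem_span_singleton.2 ⟨c, (con_inj i fun z => ?_).symm⟩
    exact ten_injective i hw (add_left_cancel ((ap_root i w φ hφ z).symm.trans (hc z)))
  have h1 := Submodule.finrank_mono key
  have h2 := finrank_perp hw
  by_cases h0 : φ₀ = 0
  · subst h0
    rw [Submodule.span_zero_singleton, finrank_bot] at h1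
    omega
  · rw [finrank_span_singleton h0] at h1
    omega

/-- An overgroup without all elementary transvections in which slices are only moved factorwise is
factorwise. -/
theorem le_wreath_of_sliceClosed [Finite F] (hm : 3 ≤ m) [Nonempty T] (hM : Over M)
    (hA : SliceClosed M) : M ≤ wreath T m F := by
  classical
  intro g₀ hg₀
  by_contra hg₀W
  have hv : (Pi.single ⟨0, by omega⟩ 1 : Fin m → F) ≠ 0 := by simp
  let P : ℕ → Prop := fun n => ∃ g ∈ M, g ∉ wreath T m F ∧ ∃ (i j : T) (w w' : Fin m → F),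
    w ≠ 0 ∧ w' ≠ 0 ∧ Module.finrank F (span2 g i j w w') = n
  have hex : ∃ n, P n :=
    ⟨_, g₀, hg₀, hg₀W, Classical.arbitrary T, Classical.arbitrary T, _, _, hv, hv, rfl⟩
  obtain ⟨g, hg, hgW, i, j, w, w', hw, hw', hn⟩ := Nat.find_spec hex
  have hL : Least M g i j w w' := ⟨hg, hgW, hw, hw', fun g' hg' hg'W i' j' v v' hv hv' =>
    hn.trans_le (Nat.find_min' hex ⟨g', hg', hg'W, i', j', v, v', hv, hv', rfl⟩)⟩
  have hne : Nonempty (Rest i m) := ⟨fun _ => ⟨0, by omega⟩⟩
  -- the group generated by the two root groups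
  set E := rootGroup (m := m) i w with hE
  set E' := (rootGroup (m := m) j w').map (MulAut.conj g).toMonoidHom with hE'
  set J := E ⊔ E' with hJ
  have hJM : J ≤ M := sup_le (by rintro _ ⟨φ, hφ, rfl⟩; exact hM.root_mem _ _ _ _) (by
    rintro _ ⟨_, ⟨φ, hφ, rfl⟩, rfl⟩
    simp only [MulEquiv.coe_toMonoidHom, MulAut.conj_apply]
    exact M.mul_mem (M.mul_mem hg (hM.root_mem _ _ _ _)) (M.inv_mem hg))
  have hJR : J ≤ movInto (span2 g i j w w') := by
    refine sup_le ?_ ?_
    · rintro _ ⟨φ, hφ, rfl⟩ z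
      rw [ap_root, add_sub_cancel_left]
      exact Submodule.mem_sup_left (ten_mem_slice _ _ _)
    · rintro _ ⟨_, ⟨φ, hφ, rfl⟩, rfl⟩
      intro z
      simp only [MulEquiv.coe_toMonoidHom, MulAut.conj_apply, ap_mul, ap_root, ap_add, ap_ap_inv,
        add_sub_cancel_left]
      exact Submodule.mem_sup_right ⟨_, ten_mem_slice _ _ _, rfl⟩
  set H : Subgroup J := (wreath T m F).subgroupOf J with hH
  have hmov : ∀ d ∈ H, d ≠ 1 → mov (d : GL (T → Fin m) F) = slice i w := fun d hd h1 =>
    (hL.mov_eq hm hM hA (Subgroup.mem_subgroupOf.1 hd) (hJR d.2)).resolve_left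
      fun h => h1 (Subtype.ext h)
  set A : Subgroup J := E.subgroupOf J with hA'
  have hAH : A ≤ H := fun a ha => Subgroup.mem_subgroupOf.2 (by
    obtain ⟨φ, hφ, he⟩ := Subgroup.mem_subgroupOf.1 ha
    rw [he]
    exact root_mem_wreath _ _ _ _)
  have hFrob : Cfsg.IsFrobeniusComplement H := by
    refine ⟨?_, ?_, ?_⟩
    · obtain ⟨φ, hφ0, hφ⟩ := exists_ne_zero_dot_one (by omega) w
      intro hbot
      have hmem : (⟨root i w φ hφ, le_sup_left (a := E) (show root i w φ hφ ∈ E from ⟨φ, hφ, rfl⟩)⟩ :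
          J) ∈ H := hAH (Subgroup.mem_subgroupOf.2 ⟨φ, hφ, rfl⟩)
      rw [hbot, Subgroup.mem_bot] at hmem
      exact root_ne_one i hφ hw hφ0 (congrArg Subtype.val hmem)
    · obtain ⟨r, hr, hk⟩ := exists_conj_rootGroup_notMem hm hA hg hgW j hw'
      intro htop
      refine hk ?_
      have hmem : (⟨g * r * g⁻¹, le_sup_right (a := E) (show g * r * g⁻¹ ∈ E' from
          ⟨r, hr, rfl⟩)⟩ : J) ∈ H := htop ▸ Subgroup.mem_top _
      exact Subgroup.mem_subgroupOf.1 hmem
    · intro x hx
      rw [eq_bot_iff]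
      rintro d ⟨hd, hd'⟩
      replace hd' : x⁻¹ * d * x ∈ H := CfsgLib.Frobenius.mem_conj_smul.1 hd'
      rw [Subgroup.mem_bot]
      by_contra h1
      have h2 := hmov _ hd' (fun h => h1 (by
        have := congrArg (fun y => x * y * x⁻¹) h
        simpa [mul_assoc] using this))
      have h3 : mov ((x⁻¹ * d * x : J) : GL (T → Fin m) F) =
          (slice i w).map (apEquiv ((x : GL (T → Fin m) F))⁻¹).toLinearMap := by
        rw [← hmov d hd h1, ← mov_conj]
        simp
      refine hx (Subgroup.mem_subgroupOf.2 ?_)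
      have h4 := hA _ (M.inv_mem (hJM x.2)) i i w w hw hw (h3.symm.trans h2)
      simpa using (wreath T m F).inv_mem h4
  obtain ⟨N, -, hN, hc⟩ := CfsgLib.Frobenius.exists_kernel hFrob
  have hN1 : N ≠ ⊥ := by
    rintro rfl
    exact hFrob.2.1 (Subgroup.isComplement'_bot_left.1 hc)
  have hfpf := (CfsgLib.Frobenius.isFrobeniusComplement_iff_fpf N H hc hN1 hFrob.1).1 hFrob
  have hcomm : IsMulCommutative A := by
    haveI := isMulCommutative_rootGroup (T := T) (F := F) i w
    exact ⟨⟨fun a b => Subtype.ext (Subtype.ext (congrArg Subtype.val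
      (mul_comm' (⟨(a : J), a.2⟩ : E) ⟨(b : J), b.2⟩) :))⟩⟩
  have hcyc : IsCyclic A := Cores.isCyclic_of_fpf hN1 Subgroup.le_normalizer_of_normal
    fun a ha h1 => (eq_bot_iff).2 fun k hk => Subgroup.mem_bot.2
      (hfpf a (hAH ha) h1 k hk.1 (Subgroup.mem_centralizer_singleton_iff.1 hk.2).symm)
  exact not_isCyclic_rootGroup hm i hw
    (isCyclic_of_surjective _ (Subgroup.subgroupOfEquivOfLe (le_sup_left : E ≤ J)).surjective)

/-- An overgroup holds every elementary transvection or is factorwise. -/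
theorem dichotomy [Finite F] (hm : 3 ≤ m) (T : Type) [Fintype T] [DecidableEq T]
    (hT : 2 ≤ Fintype.card T) : Dichotomy T m F := by
  suffices key : ∀ n, ∀ (T : Type) [Fintype T] [DecidableEq T], Fintype.card T = n → 2 ≤ n →
      Dichotomy T m F from key _ T rfl hT
  intro n
  induction n using Nat.strong_induction_on with
  | _ n ih =>
    intro T _ _ hn h2 M hM
    refine or_iff_not_imp_left.2 fun hX => ?_
    have : Nonempty T := Fintype.card_pos_iff.1 (by omega)
    refine le_wreath_of_sliceClosed hm hM fun g hg i j w w' hw hw' h =>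
      mem_wreath_of_map_slice hm (by omega) hM hX (fun j hc => ?_) hg hw hw' h
    have hcard : Fintype.card {l : T // l ≠ j} = n - 1 := by
      rw [Fintype.card_subtype_compl, Fintype.card_subtype_eq, hn]
    exact ih (n - 1) (by omega) _ hcard (by omega)

end CfsgLib.Geometric.TPow
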