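import Cfsg.Agent.Lib.Geometric.TensorPower.Wreath

/-!
Elementary nilpotent maps supported on a set of factors: an overgroup of the factorwise special
linear groups and the cyclic exchanges of three factors holding one on at least two factors holds
every elementary transvection.
-/

set_option autoImplicit false

namespace CfsgLib.Geometric.TPow

open Matrix

variable {T : Type} [Fintype T] [DecidableEq T] {m : ℕ} {F : Type*} [Field F]

/-- The tensor product of matrix units on the factors in `A`. -/
def mxL (A : Finset T) (p q : T → Fin m) : ((T → Fin m) → F) →ₗ[F] ((T → Fin m) → F) where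
  toFun z x := if ∀ l ∈ A, x l = p l then z (A.piecewise q x) else 0
  map_add' z z' := funext fun x => by simp only [Pi.add_apply]; split_ifs <;> simp
  map_smul' c z := funext fun x => by
    simp only [Pi.smul_apply, RingHom.id_apply]; split_ifs <;> simp

lemma mxL_apply (A : Finset T) (p q : T → Fin m) (z : (T → Fin m) → F) (x : T → Fin m) :
    mxL A p q z x = if ∀ l ∈ A, x l = p l then z (A.piecewise q x) else 0 := rfl

lemma mxL_congr {A : Finset T} {p p' q q' : T → Fin m} (hp : ∀ l ∈ A, p l = p' l)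
    (hq : ∀ l ∈ A, q l = q' l) : (mxL A p q : ((T → Fin m) → F) →ₗ[F] _) = mxL A p' q' := by
  refine LinearMap.ext fun z => funext fun x => ?_
  rw [mxL_apply, mxL_apply, A.piecewise_congr (g := x) hq fun _ _ => rfl]
  exact if_congr (forall₂_congr fun l hl => by rw [hp l hl]) rfl rfl

lemma mxL_comp {A B : Finset T} {p q p' q' : T → Fin m} (h : ∀ l ∈ A ∩ B, q l = p' l) :
    (mxL A p q : ((T → Fin m) → F) →ₗ[F] _).comp (mxL B p' q') =
      mxL (A ∪ B) (A.piecewise p p') (B.piecewise q' q) := by
  refine LinearMap.ext fun z => funext fun x => ?_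
  simp only [LinearMap.comp_apply, mxL_apply]
  have hcond : ((∀ l ∈ A, x l = p l) ∧ ∀ l ∈ B, A.piecewise q x l = p' l) ↔
      ∀ l ∈ A ∪ B, x l = A.piecewise p p' l := by
    constructor
    · rintro ⟨h1, h2⟩ l hl
      by_cases hA : l ∈ A
      · simp [hA, h1 l hA]
      · simpa [hA] using h2 l ((Finset.mem_union.1 hl).resolve_left hA)
    · intro h1
      refine ⟨fun l hl => by simpa [hl] using h1 l (Finset.mem_union_left B hl), fun l hl => ?_⟩
      by_cases hA : l ∈ A
      · simp [hA, h l (Finset.mem_inter.2 ⟨hA, hl⟩)]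
      · simpa [hA] using h1 l (Finset.mem_union_right A hl)
  have harg : B.piecewise q' (A.piecewise q x) = (A ∪ B).piecewise (B.piecewise q' q) x := by
    funext l
    by_cases hA : l ∈ A <;> by_cases hB : l ∈ B <;> simp [hA, hB]
  rw [← ite_and, harg]
  exact if_congr hcond rfl rfl

lemma mxL_comp_zero {A B : Finset T} {p q p' q' : T → Fin m} {l : T} (hA : l ∈ A) (hB : l ∈ B)
    (hne : q l ≠ p' l) (z : (T → Fin m) → F) : mxL A p q (mxL B p' q' z) = 0 := by
  funext x
  simp only [mxL_apply, Pi.zero_apply]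
  split_ifs with h1 h2
  · exact absurd (by simpa [hA] using h2 l hB) hne
  · rfl
  · rfl

/-- `M` holds the identity plus a multiple of an elementary nilpotent map. -/
def HasMix (M : Subgroup (GL (T → Fin m) F)) (A : Finset T) (p q : T → Fin m) (c : F) : Prop :=
  ∃ g ∈ M, ∀ z, ap g z = z + c • mxL A p q z

/-- `M` holds every elementary transvection. -/
def Mixed (M : Subgroup (GL (T → Fin m) F)) : Prop :=
  ∀ p q : T → Fin m, p ≠ q → ∀ c : F, HasMix M Finset.univ p q c

/-- An overgroup of the factorwise special linear groups and the cyclic exchanges of factors. -/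
structure Over (M : Subgroup (GL (T → Fin m) F)) : Prop where
  slot_mem : ∀ (i : T) (a : GL (Fin m) F), a ∈ Cfsg.Geo.specialLinear (Fin m) F → slot i a ∈ M
  cyc_mem : ∀ a b c : T, a ≠ b → b ≠ c → a ≠ c → perm (Equiv.swap a c * Equiv.swap a b) ∈ M

variable {M : Subgroup (GL (T → Fin m) F)}

lemma Over.root_mem (hM : Over M) (i : T) (v φ : Fin m → F) (h : φ ⬝ᵥ v = 0) :
    root i v φ h ∈ M := hM.slot_mem i _ (tvv_mem v φ h)

lemma HasMix.congr {A : Finset T} {p p' q q' : T → Fin m} {c : F} (h : HasMix M A p q c)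
    (hp : ∀ l ∈ A, p l = p' l) (hq : ∀ l ∈ A, q l = q' l) : HasMix M A p' q' c := by
  obtain ⟨g, hg, hgz⟩ := h
  exact ⟨g, hg, fun z => by rw [hgz, mxL_congr hp hq]⟩

/-- The action of the commutator of two mixers. -/
lemma ap_comm {A B : Finset T} {p q p' q' : T → Fin m} {c c' : F} {g g' : GL (T → Fin m) F}
    (hgz : ∀ z, ap g z = z + c • mxL A p q z) (hgz' : ∀ z, ap g' z = z + c' • mxL B p' q' z)
    (hov : ∀ l ∈ A ∩ B, q l = p' l) {a : T} (ha : a ∈ A) (hpa : p a ≠ q a) {b : T} (hb : b ∈ B)
    (hpb : p' b ≠ q' b) {l : T} (hlA : l ∈ A) (hlB : l ∈ B) (hl : q' l ≠ p l)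
    (z : (T → Fin m) → F) :
    ap (g * g' * g⁻¹ * g'⁻¹) z =
      z + (c * c') • mxL (A ∪ B) (A.piecewise p p') (B.piecewise q' q) z := by
  obtain ⟨w, rfl⟩ : ∃ w, ap g' (ap g w) = z :=
    ⟨ap g⁻¹ (ap g'⁻¹ z), by rw [ap_ap_inv, ap_ap_inv]⟩
  rw [← mxL_comp hov, ap_mul, ap_mul, ap_mul, ap_inv_ap, ap_inv_ap]
  simp only [hgz, hgz', map_add, map_smul, LinearMap.comp_apply,
    mxL_comp_zero hb hb (Ne.symm hpb), mxL_comp_zero ha ha (Ne.symm hpa),
    mxL_comp_zero hlB hlA hl]
  simp only [smul_add, smul_zero, add_zero, map_zero, smul_smul]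
  abel

/-- The commutator of two mixers. -/
lemma HasMix.comm {A B : Finset T} {p q p' q' : T → Fin m} {c c' : F} (h : HasMix M A p q c)
    (h' : HasMix M B p' q' c') (hov : ∀ l ∈ A ∩ B, q l = p' l) {a : T} (ha : a ∈ A)
    (hpa : p a ≠ q a) {b : T} (hb : b ∈ B) (hpb : p' b ≠ q' b) {l : T} (hlA : l ∈ A)
    (hlB : l ∈ B) (hl : q' l ≠ p l) :
    HasMix M (A ∪ B) (A.piecewise p p') (B.piecewise q' q) (c * c') := by
  obtain ⟨g, hg, hgz⟩ := h
  obtain ⟨g', hg', hgz'⟩ := h'
  exact ⟨_, M.mul_mem (M.mul_mem (M.mul_mem hg hg') (M.inv_mem hg)) (M.inv_mem hg'),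
    ap_comm hgz hgz' hov ha hpa hb hpb hlA hlB hl⟩

/-- A monomial element of determinant one with prescribed behaviour at two indices. -/
lemma exists_monomial (hm : 3 ≤ m) {p q p' q' : Fin m} (hpq : p ≠ q) (hpq' : p' ≠ q') {lam : F}
    (hlam : lam ≠ 0) : ∃ a : GL (Fin m) F, a ∈ Cfsg.Geo.specialLinear (Fin m) F ∧
      (∀ x, (a : Matrix (Fin m) (Fin m) F) x p = if x = p' then lam else 0) ∧
      ∀ y, (a : Matrix (Fin m) (Fin m) F) q' y = if y = q then 1 else 0 := by
  set π : Equiv.Perm (Fin m) := Equiv.swap (Equiv.swap p p' q) q' * Equiv.swap p p' with hπ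
  have hπq : π q = q' := by simp [hπ]
  have hπp : π p = p' := by
    simp only [hπ, Equiv.Perm.mul_apply, Equiv.swap_apply_left]
    refine Equiv.swap_apply_of_ne_of_ne (fun h => hpq ?_) hpq'
    have := congrArg (Equiv.swap p p') h
    rwa [Equiv.swap_apply_self, Equiv.swap_apply_right] at this
  obtain ⟨r, -, hr⟩ : ∃ r ∈ (Finset.univ : Finset (Fin m)), r ∉ ({p, q} : Finset (Fin m)) :=
    Finset.exists_mem_notMem_of_card_lt_card (by
      rw [Finset.card_univ, Fintype.card_fin, Finset.card_pair hpq]; omega)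
  simp only [Finset.mem_insert, Finset.mem_singleton, not_or] at hr
  set s : F := ((π⁻¹.permMatrix F).det * lam)⁻¹ with hs
  set d : Fin m → F := Function.update (Function.update 1 p lam) r s with hd
  set A : Matrix (Fin m) (Fin m) F := π⁻¹.permMatrix F * Matrix.diagonal d with hA
  have hsgn : (π⁻¹.permMatrix F).det ≠ 0 := by
    rw [Matrix.det_permutation]
    rcases Int.units_eq_one_or (Equiv.Perm.sign π⁻¹) with h | h <;> simp [h]
  have hprod : ∏ y, d y = s * lam := by
    rw [hd, Finset.prod_update_of_mem (Finset.mem_univ r),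
      Finset.prod_update_of_mem (Finset.mem_sdiff.2 ⟨Finset.mem_univ p, by simp [Ne.symm hr.1]⟩)]
    simp
  have hdet : A.det = 1 := by
    rw [hA, Matrix.det_mul, Matrix.det_diagonal, hprod, hs]
    field_simp
  have hent : ∀ x y, A x y = if x = π y then d y else 0 := fun x y => by
    rw [hA, Matrix.mul_diagonal]
    simp only [Equiv.Perm.permMatrix, PEquiv.toMatrix_apply, Equiv.toPEquiv_apply, Option.mem_def,
      Option.some.injEq]
    by_cases h : x = π y
    · simp [h]
    · rw [if_neg h, if_neg (fun h' : π⁻¹ x = y => h (by rw [← h']; simp)), zero_mul]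
  refine ⟨Matrix.GeneralLinearGroup.mkOfDetNeZero A (by simp [hdet]),
    (mem_specialLinear_iff _).2 (by simpa using hdet), fun x => ?_, fun y => ?_⟩
  · change A x p = _
    rw [hent, hπp]
    simp [hd, Function.update_of_ne (Ne.symm hr.1)]
  · change A q' y = _
    rw [hent, ← hπq]
    simp only [π.injective.eq_iff, eq_comm (a := q)]
    split_ifs with h
    · subst h
      simp [hd, Function.update_of_ne (Ne.symm hr.2), Function.update_of_ne hpq.symm]
    · rfl

/-- Changing one pair of indices and scaling. -/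
lemma HasMix.change (hm : 3 ≤ m) (hM : Over M) {A : Finset T} {p q : T → Fin m} {c : F}
    (h : HasMix M A p q c) {l : T} (hl : l ∈ A) (hne : p l ≠ q l) {p' q' : Fin m} (hne' : p' ≠ q')
    {lam : F} (hlam : lam ≠ 0) :
    HasMix M A (Function.update p l p') (Function.update q l q') (lam * c) := by
  obtain ⟨g, hg, hgz⟩ := h
  obtain ⟨a, ha, hap, haq⟩ := exists_monomial hm hne hne' hlam
  set s : GL (T → Fin m) F := slot l a with hs
  have hkey : ∀ z, ap s (mxL A p q z) =
      lam • mxL A (Function.update p l p') (Function.update q l q') (ap s z) := by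
    intro z
    funext x
    simp only [hs, ap_slot_apply, mxL_apply, Pi.smul_apply, smul_eq_mul, mul_ite, mul_zero]
    have hcond : ∀ b, (∀ k ∈ A, Function.update x l b k = p k) ↔
        (b = p l ∧ ∀ k ∈ A, k ≠ l → x k = p k) := fun b => by
      constructor
      · intro h
        exact ⟨by simpa using h l hl, fun k hk hkl => by simpa [hkl] using h k hk⟩
      · rintro ⟨h1, h2⟩ k hk
        by_cases hkl : k = l
        · subst hkl; simp [h1]
        · simp [hkl, h2 k hk hkl]
    have hcond' : (∀ k ∈ A, x k = Function.update p l p' k) ↔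
        (x l = p' ∧ ∀ k ∈ A, k ≠ l → x k = p k) := by
      constructor
      · intro h
        exact ⟨by simpa using h l hl, fun k hk hkl => by simpa [hkl] using h k hk⟩
      · rintro ⟨h1, h2⟩ k hk
        by_cases hkl : k = l
        · subst hkl; simp [h1]
        · simp [hkl, h2 k hk hkl]
    simp only [hcond, hcond']
    by_cases hR : ∀ k ∈ A, k ≠ l → x k = p k
    swap
    · simp [hR]
    simp only [eq_true hR, and_true, Finset.sum_ite_eq', Finset.mem_univ, if_true]
    have hpw : A.piecewise q (Function.update x l (p l)) = A.piecewise q x := by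
      funext k
      by_cases hk : k ∈ A
      · simp [hk]
      · simp [hk, Function.update_of_ne (fun h : k = l => hk (h ▸ hl))]
    have hpw' : Function.update (A.piecewise (Function.update q l q') x) l (q l) =
        A.piecewise q x := by
      funext k
      by_cases hkl : k = l
      · subst hkl; simp [hl]
      · rw [Function.update_of_ne hkl]
        by_cases hk : k ∈ A <;> simp [hk, hkl]
    rw [hap, hpw]
    split_ifs with hx
    · congr 1
      rw [Finset.piecewise_eq_of_mem _ _ _ hl, Function.update_self]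
      simp [haq, hpw']
    · simp
  refine ⟨s * g * s⁻¹, M.mul_mem (M.mul_mem (hM.slot_mem l a ha) hg)
    (M.inv_mem (hM.slot_mem l a ha)), fun z => ?_⟩
  rw [ap_mul, ap_mul, hgz, ap_add, ap_smul, hkey, ap_ap_inv, smul_smul, mul_comm c lam]

/-- Changing all pairs of indices and the coefficient. -/
lemma HasMix.all (hm : 3 ≤ m) (hM : Over M) {A : Finset T} {p q : T → Fin m} {c : F}
    (h : HasMix M A p q c) (hc : c ≠ 0) (hA : A.Nonempty) (hne : ∀ l ∈ A, p l ≠ q l)
    {p' q' : T → Fin m} (hne' : ∀ l ∈ A, p' l ≠ q' l) (c' : F) : HasMix M A p' q' c' := by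
  by_cases hc' : c' = 0
  · exact ⟨1, M.one_mem, fun z => by simp [hc']⟩
  have key : ∀ S : Finset T, S ⊆ A → HasMix M A (S.piecewise p' p) (S.piecewise q' q) c := by
    intro S
    induction S using Finset.induction with
    | empty => intro; simpa using h
    | insert l S hlS ih =>
      intro hS
      have hl := hS (Finset.mem_insert_self l S)
      have := (ih fun k hk => hS (Finset.mem_insert_of_mem hk)).change hm hM hl
        (by simpa [hlS] using hne l hl) (hne' l hl) one_ne_zero
      rw [one_mul] at this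
      simpa [Finset.piecewise_insert] using this
  have h' : HasMix M A p' q' c :=
    (key A le_rfl).congr (fun l hl => by simp [hl]) (fun l hl => by simp [hl])
  obtain ⟨l, hl⟩ := hA
  have := h'.change hm hM hl (hne' l hl) (hne' l hl) (mul_ne_zero hc' (inv_ne_zero hc))
  rwa [Function.update_eq_self, Function.update_eq_self, mul_assoc, inv_mul_cancel₀ hc, mul_one]
    at this

/-- Moving the factors of a mixer by a permutation in `M`. -/
lemma HasMix.perm {A : Finset T} {p q : T → Fin m} {c : F} (h : HasMix M A p q c)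
    {σ : Equiv.Perm T} (hσ : TPow.perm σ ∈ M) :
    HasMix M (A.map σ.toEmbedding) (p ∘ σ.symm) (q ∘ σ.symm) c := by
  obtain ⟨g, hg, hgz⟩ := h
  refine ⟨TPow.perm σ * g * (TPow.perm σ)⁻¹, M.mul_mem (M.mul_mem hσ hg) (M.inv_mem hσ), fun z => ?_⟩
  obtain ⟨w, rfl⟩ : ∃ w, ap (TPow.perm σ) w = z := ⟨_, ap_ap_inv _ z⟩
  rw [ap_mul, ap_mul, ap_inv_ap, hgz, ap_add, ap_smul]
  congr 2
  funext x
  rw [ap_perm, mxL_apply, mxL_apply, ap_perm]
  refine if_congr ⟨fun h k hk => ?_, fun h l hl => ?_⟩ (congrArg w (funext fun l => ?_)) rfl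
  · obtain ⟨l, hl, rfl⟩ := Finset.mem_map.1 hk
    simpa using h l hl
  · simpa using h (σ l) (Finset.mem_map_of_mem _ hl)
  · by_cases hl : l ∈ A <;> simp [hl, Finset.piecewise]

/-- One mixer on at least two factors gives every elementary transvection. -/
theorem mixed_of_hasMix (hm : 3 ≤ m) (hM : Over M) {A : Finset T} {p q : T → Fin m} {c : F}
    (h : HasMix M A p q c) (hc : c ≠ 0) (hA : 2 ≤ A.card) (hne : ∀ l ∈ A, p l ≠ q l) :
    Mixed M := by
  let p0 : Fin m := ⟨0, by omega⟩
  let p1 : Fin m := ⟨1, by omega⟩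
  let p2 : Fin m := ⟨2, by omega⟩
  have h01 : p0 ≠ p1 := by simp [p0, p1]
  have h02 : p0 ≠ p2 := by simp [p0, p2]
  have h12 : p1 ≠ p2 := by simp [p1, p2]
  have main : ∀ d, ∀ A : Finset T, Fintype.card T - A.card = d → 2 ≤ A.card →
      HasMix M A (fun _ => p0) (fun _ => p2) 1 →
      HasMix M Finset.univ (fun _ => p0) (fun _ => p2) 1 := by
    intro d
    induction d with
    | zero =>
      intro A hd _ h
      rwa [(Finset.card_eq_iff_eq_univ A).1 (by have := Finset.card_le_univ A; omega)] at h
    | succ d ih =>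
      intro A hd hA h
      obtain ⟨l, -, hl⟩ : ∃ l ∈ (Finset.univ : Finset T), l ∉ A :=
        Finset.exists_mem_notMem_of_card_lt_card (by rw [Finset.card_univ]; omega)
      obtain ⟨i, hi, s, hs, his⟩ := Finset.one_lt_card.1 (show 1 < A.card by omega)
      have hil : i ≠ l := fun h => hl (h ▸ hi)
      have hsl : s ≠ l := fun h => hl (h ▸ hs)
      set σ := Equiv.swap i l * Equiv.swap i s with hσ
      set B := A.map σ.toEmbedding with hB
      have hsB : s ∈ B := Finset.mem_map.2 ⟨i, hi, by
        simp [hσ, Equiv.swap_apply_of_ne_of_ne his.symm hsl]⟩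
      have hlB : l ∈ B := Finset.mem_map.2 ⟨s, hs, by simp [hσ]⟩
      set q₁ : T → Fin m := fun k => if k ∈ B then p1 else p2 with hq₁
      set p₂ : T → Fin m := fun k => if k ∈ A then p1 else p0 with hp₂
      have hne₁ : ∀ k ∈ A, p0 ≠ q₁ k := fun k _ => by simp only [hq₁]; split_ifs <;> assumption
      have hne₂ : ∀ k ∈ B, p₂ k ≠ p2 := fun k _ => by simp only [hp₂]; split_ifs <;> assumption
      have h₁ : HasMix M A (fun _ => p0) q₁ 1 :=
        h.all hm hM one_ne_zero ⟨i, hi⟩ (fun _ _ => h02) hne₁ 1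
      have h₂ : HasMix M B p₂ (fun _ => p2) 1 :=
        (h.perm (hM.cyc_mem i s l his hsl hil)).all hm hM one_ne_zero ⟨s, hsB⟩
          (fun _ _ => h02) hne₂ 1
      have hu := h₁.comm h₂ (fun k hk => by
        simp [hq₁, hp₂, (Finset.mem_inter.1 hk).1, (Finset.mem_inter.1 hk).2]) hi (hne₁ i hi)
        hsB (hne₂ s hsB) hs hsB h02.symm
      rw [mul_one] at hu
      have hu' : HasMix M (A ∪ B) (fun _ => p0) (fun _ => p2) 1 := by
        refine hu.congr (fun k _ => ?_) fun k _ => ?_
        · by_cases hk : k ∈ A <;> simp [hk, hp₂]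
        · by_cases hk : k ∈ B <;> simp [hk, hq₁]
      have hcard : (A ∪ B).card = A.card + 1 := by
        refine le_antisymm ?_ ?_
        · refine (Finset.card_le_card (t := insert l A) fun k hk => ?_).trans
            (Finset.card_insert_le _ _)
          rcases Finset.mem_union.1 hk with hk | hk
          · exact Finset.mem_insert_of_mem hk
          · obtain ⟨j, hj, rfl⟩ := Finset.mem_map.1 hk
            by_cases hji : j = i
            · subst hji
              exact Finset.mem_insert_of_mem (by
                simp [hσ, Equiv.swap_apply_of_ne_of_ne his.symm hsl, hs])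
            by_cases hjs : j = s
            · subst hjs
              simp [hσ]
            exact Finset.mem_insert_of_mem (by
              simp [hσ, Equiv.swap_apply_of_ne_of_ne hji hjs,
                Equiv.swap_apply_of_ne_of_ne hji (fun h : j = l => hl (h ▸ hj)), hj])
        · rw [← Finset.card_insert_of_notMem hl]
          exact Finset.card_le_card fun k hk => by
            rcases Finset.mem_insert.1 hk with rfl | hk
            · exact Finset.mem_union_right _ hlB
            · exact Finset.mem_union_left _ hk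
      exact ih _ (by omega) (by omega) hu'
  have hA' : A.Nonempty := Finset.card_pos.1 (by omega)
  have hfull := main _ A rfl hA (h.all hm hM hc hA' hne (fun _ _ => h02) 1)
  intro x y hxy c'
  obtain ⟨l₀, hl₀⟩ := Function.ne_iff.1 hxy
  have hr : ∀ l, ∃ b : Fin m, x l ≠ b ∧ b ≠ y l := fun l => by
    obtain ⟨b, -, hb⟩ : ∃ b ∈ (Finset.univ : Finset (Fin m)), b ∉ ({x l, y l} : Finset (Fin m)) :=
      Finset.exists_mem_notMem_of_card_lt_card (by
        rw [Finset.card_univ, Fintype.card_fin]
        exact Finset.card_le_two.trans_lt (by omega))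
    simp only [Finset.mem_insert, Finset.mem_singleton, not_or] at hb
    exact ⟨b, Ne.symm hb.1, hb.2⟩
  choose r hr1 hr2 using hr
  have hall : ∀ {u v : T → Fin m}, (∀ l, u l ≠ v l) → ∀ c₀, HasMix M Finset.univ u v c₀ :=
    fun huv c₀ => hfull.all hm hM one_ne_zero ⟨l₀, Finset.mem_univ _⟩ (fun _ _ => h02)
      (fun l _ => huv l) c₀
  have := (hall hr1 c').comm (hall hr2 1) (fun _ _ => rfl) (Finset.mem_univ l₀) (hr1 l₀)
    (Finset.mem_univ l₀) (hr2 l₀) (Finset.mem_univ l₀) (Finset.mem_univ l₀) (Ne.symm hl₀)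
  rw [mul_one, Finset.union_self] at this
  exact this.congr (fun l _ => by simp) (fun l _ => by simp)

/-- A group with every elementary transvection contains the special linear group. -/
theorem specialLinear_le_of_mixed (h : Mixed M) :
    Cfsg.Geo.specialLinear (T → Fin m) F ≤ M := by
  refine specialLinear_le_of_elementary (LinearEquiv.refl F _) fun p q hpq r hh => ?_
  obtain ⟨g, hg, hgz⟩ := h p q hpq r
  have : g = tv (r • (LinearEquiv.refl F ((T → Fin m) → F)) (Pi.single p 1))
      ((LinearMap.proj q).comp (LinearEquiv.refl F ((T → Fin m) → F)).symm.toLinearMap) hh := by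
    refine gl_ext fun z => ?_
    rw [hgz, ap_tv]
    funext x
    by_cases hx : x = p
    · subst hx; simp [mxL_apply, mul_comm]
    · have : ¬ ∀ l, x l = p l := fun h => hx (funext h)
      simp [mxL_apply, this, hx]
  exact this ▸ hg

end CfsgLib.Geometric.TPow
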