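import Cfsg.Agent.Lib.Geometric.TensorPower.Extract

/-!
In an overgroup of the factorwise special linear groups and the cyclic exchanges without all
elementary transvections an element fixing a slice pointwise and trivial modulo it is a root element.
-/

set_option autoImplicit false

namespace CfsgLib.Geometric.TPow

open Matrix

variable {T : Type} [Fintype T] [DecidableEq T] {m : ℕ} {F : Type*} [Field F]
variable {M : Subgroup (GL (T → Fin m) F)}

lemma res_update_ne (i : T) (l : {l : T // l ≠ i}) (a : Fin m) (x : T → Fin m) :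
    res i (Function.update x l a) = Function.update (res i x) l a := by
  funext k
  by_cases h : k = l
  · subst h; simp [res]
  · simp [res, Function.update_of_ne h, Function.update_of_ne (fun h' => h (Subtype.ext h'))]

lemma ins_update (i : T) (l : {l : T // l ≠ i}) (a b : Fin m) (r : Rest i m) :
    ins i a (Function.update r l b) = Function.update (ins i a r) l b := by
  funext k
  by_cases hk : k = i
  · subst hk; simp [Function.update_of_ne (Ne.symm l.2)]
  · rw [ins_ne i a _ ⟨k, hk⟩]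
    by_cases h : k = l
    · subst h; simp
    · rw [Function.update_of_ne h, ins_ne i a r ⟨k, hk⟩,
        Function.update_of_ne fun h' => h (congrArg Subtype.val h')]

/-- The other factors' elements act on the rest. -/
lemma slot_ten_other (i : T) (l : {l : T // l ≠ i}) (a : GL (Fin m) F) (v : Fin m → F)
    (y : Rest i m → F) :
    ap (slot (l : T) a) (ten i v y) = ten i v (ap (slot l a) y) := by
  funext x
  simp only [ap_slot_apply, ten_apply, res_update_ne, Function.update_of_ne (Ne.symm l.2),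
    Finset.mul_sum]
  exact Finset.sum_congr rfl fun b _ => by simp [res, mul_left_comm]

lemma con_slot_other (i : T) (l : {l : T // l ≠ i}) (a : GL (Fin m) F) (φ : Fin m → F)
    (z : (T → Fin m) → F) :
    con i φ (ap (slot (l : T) a) z) = ap (slot l a) (con i φ z) := by
  funext r
  simp only [con_apply, ap_slot_apply, ins_ne, ins_update, Finset.mul_sum]
  rw [Finset.sum_comm]
  exact Finset.sum_congr rfl fun _ _ => Finset.sum_congr rfl fun _ _ => mul_left_comm _ _ _

/-- The special linear group moves a vector to any non-zero one. -/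
lemma exists_sl_map (hm : 3 ≤ m) {x y : Fin m → F} (hx : x ≠ 0) (hy : y ≠ 0) :
    ∃ a ∈ Cfsg.Geo.specialLinear (Fin m) F, ap a x = y := by
  have one : ∀ u v : Fin m → F, u ≠ 0 → v ∉ Submodule.span F {u} →
      ∃ a ∈ Cfsg.Geo.specialLinear (Fin m) F, ap a u = v := fun u v hu hv => by
    obtain ⟨φ, hφ, hm'⟩ := exists_tv_map (notMem_span_sub hu hv)
    exact ⟨_, tv_mem_specialLinear _ _ _, hm'⟩
  by_cases h : y ∈ Submodule.span F {x}
  swap
  · exact one x y hx h
  obtain ⟨v, hv⟩ := exists_notMem_span_two hm x y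
  have hvx : v ∉ Submodule.span F {x} := fun h' =>
    hv (Submodule.span_mono (by simp) h')
  have hv0 : v ≠ 0 := fun h0 => hv (h0 ▸ zero_mem _)
  have hyv : y ∉ Submodule.span F {v} := by
    intro h'
    obtain ⟨s, hs⟩ := Submodule.mem_span_singleton.1 h'
    obtain ⟨s', hs'⟩ := Submodule.mem_span_singleton.1 h
    have hs0 : s ≠ 0 := fun h0 => hy (by rw [← hs, h0, zero_smul])
    refine hvx (Submodule.mem_span_singleton.2 ⟨s⁻¹ * s', ?_⟩)
    rw [mul_smul, hs', ← hs, inv_smul_smul₀ hs0]
  obtain ⟨a, ha, hax⟩ := one x v hx hvx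
  obtain ⟨b, hb, hbv⟩ := one v y hv0 hyv
  exact ⟨b * a, mul_mem hb ha, by rw [ap_mul, hax, hbv]⟩

/-- The elements of the radical of a basis slice are root elements. -/
theorem radical_single (hm : 3 ≤ m) (hM : Over M) (hX : ¬ Mixed M) {i : T} {z0 : Fin m}
    (hz0 : (z0 : ℕ) = 0) {u : GL (T → Fin m) F} (hu : u ∈ M)
    (hfix : ∀ y, ap u (ten i (Pi.single z0 1) y) = ten i (Pi.single z0 1) y)
    (hmod : ∀ z, ap u z - z ∈ slice i (Pi.single z0 (1 : F))) :
    ∃ φ h, u = root i (Pi.single z0 1) φ h := by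
  classical
  obtain ⟨A, hA⟩ : ∃ A : ((T → Fin m) → F) →ₗ[F] (Rest i m → F),
      ∀ z, ap u z = z + ten i (Pi.single z0 1) (A z) := by
    refine ⟨(con i (Pi.single z0 1)).comp ((apEquiv u).toLinearMap - LinearMap.id), fun z => ?_⟩
    obtain ⟨y, hy⟩ := hmod z
    simp only [LinearMap.comp_apply, LinearMap.sub_apply, LinearEquiv.coe_coe, apEquiv_apply,
      LinearMap.id_apply]
    rw [← hy, con_ten]
    simp [hy]
  have hA0 : A.comp (ten i (Pi.single z0 1)) = 0 := LinearMap.ext fun y => by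
    have := hfix y
    rw [hA, add_eq_left] at this
    exact ten_injective i (by simp) (this.trans (map_zero _).symm)
  have hz0' : z0 = ⟨0, by omega⟩ := Fin.ext hz0
  let z1 : Fin m := ⟨1, by omega⟩
  -- the maps realised by elements moving along the slice
  let B : Fin m → Set (Module.End F (Rest i m → F)) := fun d =>
    {b | ∃ g ∈ M, ∀ z, ap g z = z + ten i (Pi.single z0 1) (b (con i (Pi.single d 1) z))}
  have hsub : ∀ d, d ≠ z0 → ∀ b ∈ B d, ∀ b' ∈ B d, b - b' ∈ B d := by
    rintro d hd b ⟨g, hg, hgz⟩ b' ⟨g', hg', hgz'⟩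
    refine ⟨g * g'⁻¹, M.mul_mem hg (M.inv_mem hg'), fun z => ?_⟩
    obtain ⟨w, rfl⟩ : ∃ w, ap g' w = z := ⟨_, ap_ap_inv _ z⟩
    rw [ap_mul, ap_inv_ap, hgz, hgz', map_add, con_ten]
    simp [hd]
  have hconj : ∀ d, ∀ b ∈ B d, ∀ (l : {l : T // l ≠ i}) (a : GL (Fin m) F),
      a ∈ Cfsg.Geo.specialLinear (Fin m) F → conjEnd (slot l a) b ∈ B d := by
    rintro d b ⟨g, hg, hgz⟩ l a ha
    have hs := hM.slot_mem (l : T) a ha
    refine ⟨slot (l : T) a * g * (slot (l : T) a)⁻¹, M.mul_mem (M.mul_mem hs hg) (M.inv_mem hs),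
      fun z => ?_⟩
    rw [ap_mul, ap_mul, hgz, ap_add, ap_ap_inv, slot_ten_other]
    congr 2
    rw [conjEnd_apply]
    congr 2
    rw [← map_inv, ← map_inv, con_slot_other]
  have hone : ∀ d (hd : d ≠ z0) (c : F), c • (1 : Module.End F (Rest i m → F)) ∈ B d := fun d hd c =>
    ⟨root i (Pi.single z0 1) (c • Pi.single d 1) (by simp [hd]), hM.root_mem _ _ _ _,
      fun z => by simp [con_smul_left]⟩
  have hsc : ∀ d, d ≠ z0 → ∀ b ∈ B d, ∃ c : F, b = c • 1 := by
    intro d hd b hb
    by_contra hns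
    obtain ⟨Q, c, hQ, hc, g, hg, hgz⟩ :=
      exists_mxL_mem hm (B d) (hsub d hd) (hconj d) hb hns
    refine hX (mixed_of_hasMix hm hM (A := insert i (Q.map (Function.Embedding.subtype _)))
      (p := fun _ => z0) (q := fun k => if k = i then d else z1) ⟨g, hg, fun z => ?_⟩ hc ?_ ?_)
    · rw [hgz]
      funext x
      simp only [Pi.add_apply, ten_apply, LinearMap.smul_apply, Pi.smul_apply, mxL_apply,
        con_single_apply, smul_eq_mul, Pi.single_apply, ← hz0']
      have hc1 : (∀ l ∈ insert i (Q.map (Function.Embedding.subtype _)), x l = z0) ↔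
          x i = z0 ∧ ∀ l ∈ Q, res i x l = z0 := by
        simp [res]
      rw [if_congr hc1 rfl rfl]
      by_cases hx : x i = z0
      swap
      · simp [hx]
      simp only [hx, if_true, true_and, one_mul]
      congr 2
      refine if_congr Iff.rfl (congrArg z (funext fun k => ?_)) rfl
      by_cases hk : k = i
      · subst hk; simp
      · rw [ins_ne i d _ ⟨k, hk⟩]
        by_cases hkQ : (⟨k, hk⟩ : {l : T // l ≠ i}) ∈ Q
        · have hk' : k ∈ insert i (Q.map (Function.Embedding.subtype fun l => l ≠ i)) := by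
            simp [hk, hkQ]
          rw [Finset.piecewise_eq_of_mem _ _ _ hkQ, Finset.piecewise_eq_of_mem _ _ _ hk']
          simp [hk, z1]
        · have hk' : k ∉ insert i (Q.map (Function.Embedding.subtype fun l => l ≠ i)) := by
            simp [hk, hkQ]
          rw [Finset.piecewise_eq_of_notMem _ _ _ hkQ, Finset.piecewise_eq_of_notMem _ _ _ hk']
          rfl
    · rw [Finset.card_insert_of_notMem (by simp), Finset.card_map]
      have := hQ.card_pos
      omega
    · intro l _
      split_ifs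
      · exact hd.symm
      · simp [z1, Fin.ext_iff, hz0]
  have hβ : ∀ c : Fin m, ∃ β : F, ∀ y, A (ten i (Pi.single c 1) y) = β • y := by
    intro c
    obtain ⟨d, -, hd⟩ : ∃ d ∈ (Finset.univ : Finset (Fin m)), d ∉ ({z0, c} : Finset (Fin m)) :=
      Finset.exists_mem_notMem_of_card_lt_card (by
        rw [Finset.card_univ, Fintype.card_fin]
        exact Finset.card_le_two.trans_lt (by omega))
    simp only [Finset.mem_insert, Finset.mem_singleton, not_or] at hd
    have hdc : (Pi.single d (1 : F) : Fin m → F) ⬝ᵥ Pi.single c 1 = 0 := by simp [hd.2]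
    set x := root i (Pi.single c 1) (Pi.single d 1) hdc with hx
    have hxM : x ∈ M := hM.root_mem _ _ _ _
    have hmem : u * x * u⁻¹ * x⁻¹ ∈ M :=
      M.mul_mem (M.mul_mem (M.mul_mem hu hxM) (M.inv_mem hu)) (M.inv_mem hxM)
    have hb : A.comp (ten i (Pi.single c 1)) ∈ B d := by
      refine ⟨_, hmem, fun z => ?_⟩
      obtain ⟨w, rfl⟩ : ∃ w, ap x (ap u w) = z :=
        ⟨ap u⁻¹ (ap x⁻¹ z), by rw [ap_ap_inv, ap_ap_inv]⟩
      rw [ap_mul, ap_mul, ap_mul, ap_inv_ap, ap_inv_ap]
      have h0 : ∀ y, A (ten i (Pi.single z0 1) y) = 0 := fun y => LinearMap.congr_fun hA0 y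
      simp [hA, hx, map_add, con_ten, h0, hd.1, hd.2]
      abel
    obtain ⟨β, hβ⟩ := hsc d hd.1 _ hb
    exact ⟨β, fun y => LinearMap.congr_fun hβ y⟩
  choose β hβ using hβ
  have hβ0 : β z0 = 0 := by
    have h := (hβ z0 fun _ => 1).symm.trans (LinearMap.congr_fun hA0 _)
    have h' := congrFun h (fun _ => z0)
    simpa using h'
  refine ⟨β, by simp [hβ0], gl_ext fun z => ?_⟩
  rw [hA, ap_root]
  congr 2
  conv_lhs => rw [eq_sum_ten i z]
  rw [map_sum]
  funext r
  simp only [hβ, Finset.sum_apply, Pi.smul_apply, smul_eq_mul, con_single_apply, con_apply,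
    Pi.single_apply, ite_mul, one_mul, zero_mul, Finset.sum_ite_eq', Finset.mem_univ, if_true]

/-- An element fixing a slice pointwise and trivial modulo it is a root element. -/
theorem mem_rootGroup_of_radical (hm : 3 ≤ m) (hM : Over M) (hX : ¬ Mixed M)
    {u : GL (T → Fin m) F} (hu : u ∈ M) {i : T} {w : Fin m → F} (hw : w ≠ 0)
    (hfix : ∀ y, ap u (ten i w y) = ten i w y) (hmod : ∀ z, ap u z - z ∈ slice i w) :
    u ∈ rootGroup i w := by
  obtain ⟨a, ha, hax⟩ := exists_sl_map hm (x := (Pi.single (⟨0, by omega⟩ : Fin m) 1 : Fin m → F))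
    (y := w) (by simp) hw
  set s := slot i a with hs
  have hsM := hM.slot_mem i a ha
  obtain ⟨φ, hφ, hu'⟩ := radical_single hm hM hX (i := i) (z0 := ⟨0, by omega⟩) rfl
    (u := s⁻¹ * u * s) (M.mul_mem (M.mul_mem (M.inv_mem hsM) hu) hsM)
    (fun y => by rw [ap_mul, ap_mul, hs, slot_ten, hax, hfix, ← hax, ← slot_ten i a, ap_inv_ap])
    (fun z => by
      obtain ⟨y, hy⟩ := hmod (ap s z)
      refine ⟨y, ?_⟩
      rw [ap_mul, ap_mul]
      nth_rw 2 [← ap_inv_ap s z]
      rw [← ap_sub, ← hy, ← hax, ← slot_ten, ap_inv_ap])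
  have hker : (Matrix.vecMul φ ((a⁻¹ : GL (Fin m) F) : Matrix (Fin m) (Fin m) F)) ⬝ᵥ w = 0 := by
    rw [← Matrix.dotProduct_mulVec, ← ap_def, ← hax, ap_inv_ap]
    exact hφ
  refine ⟨_, hker, gl_ext fun z => ?_⟩
  obtain ⟨z', rfl⟩ : ∃ z', ap s z' = z := ⟨_, ap_ap_inv _ z⟩
  have h := congrArg (fun g => ap s (ap g z')) hu'
  simp only [ap_mul, ap_ap_inv, ap_root, ap_add, hs, slot_ten, hax] at h
  rw [ap_root, hs, h]
  congr 2
  refine LinearMap.congr_fun (ext_ten i (f := con i φ)
    (f' := (con i (Matrix.vecMul φ ((a⁻¹ : GL (Fin m) F) : Matrix (Fin m) (Fin m) F))).comp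
      (apEquiv s).toLinearMap) fun v y => ?_) z'
  simp only [LinearMap.comp_apply, LinearEquiv.coe_coe, apEquiv_apply, hs, slot_ten, con_ten]
  rw [← Matrix.dotProduct_mulVec, ← ap_def, ap_inv_ap]

end CfsgLib.Geometric.TPow
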