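import Cfsg.Agent.Lib.Geometric.TensorPower.Radical

/-!
In an overgroup without all elementary transvections an element carrying one slice to a slice carries
the factor of the first slice to the factor of the second.
-/

set_option autoImplicit false

namespace CfsgLib.Geometric.TPow

open Matrix

variable {T : Type} [Fintype T] [DecidableEq T] {m : ℕ} {F : Type*} [Field F]
variable {M : Subgroup (GL (T → Fin m) F)}

/-- The functionals vanishing on a vector. -/
def perp (w : Fin m → F) : Submodule F (Fin m → F) where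
  carrier := {φ | φ ⬝ᵥ w = 0}
  add_mem' h h' := by simp_all
  zero_mem' := by simp
  smul_mem' c φ h := by simp_all

lemma mem_perp {w φ : Fin m → F} : φ ∈ perp w ↔ φ ⬝ᵥ w = 0 := Iff.rfl

lemma finrank_perp {w : Fin m → F} (hw : w ≠ 0) : Module.finrank F (perp w) + 1 = m := by
  let L : (Fin m → F) →ₗ[F] F :=
    { toFun := fun φ => φ ⬝ᵥ w
      map_add' := fun φ ψ => add_dotProduct φ ψ w
      map_smul' := fun c φ => smul_dotProduct c φ w }
  have hker : LinearMap.ker L = perp w := rfl
  have hsurj : Function.Surjective L := by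
    obtain ⟨χ, hχ⟩ := exists_dot_eq_one hw
    exact fun c => ⟨c • χ, by simp [L, hχ]⟩
  have h := L.finrank_range_add_finrank_ker
  rw [hker, LinearMap.range_eq_top.2 hsurj, finrank_top, Module.finrank_self,
    Module.finrank_fin_fun] at h
  omega

lemma con_inj (i : T) {φ ψ : Fin m → F} [Nonempty (Rest i m)]
    (h : ∀ z : (T → Fin m) → F, con i φ z = con i ψ z) : φ = ψ := by
  funext a
  have := congrFun (h (ten i (Pi.single a 1) fun _ => 1)) (Classical.arbitrary _)
  simpa using this

lemma mem_span_of_slice_le (i : T) {v w : Fin m → F} (hw : w ≠ 0) [Nonempty (Rest i m)]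
    (h : slice i v ≤ slice i w) : v ∈ Submodule.span F {w} := by
  by_contra hv
  obtain ⟨φ, hφ, hφv⟩ := exists_dot_of_notMem hv
  have := (mem_slice_iff i hw).1 (h (ten_mem_slice i v fun _ => 1)) φ
    (hφ _ (Submodule.mem_span_singleton_self _))
  rw [con_ten, hφv, one_smul] at this
  exact one_ne_zero (congrFun this (Classical.arbitrary _))

lemma Split.trans {g g' : GL (T → Fin m) F} {i j l : T} (h : Split g i j) (h' : Split g' j l) :
    Split (g' * g) i l := by
  obtain ⟨a, e, he⟩ := h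
  obtain ⟨a', e', he'⟩ := h'
  exact ⟨a' * a, e.trans e', fun v y => by simp [ap_mul, he, he']⟩

/-- The images of the other slices of the family. -/
theorem exists_slice_image [Finite F] (hm : 3 ≤ m) (hM : Over M) (hX : ¬ Mixed M)
    {g : GL (T → Fin m) F} (hg : g ∈ M) {i j : T} {w w' : Fin m → F} (hw : w ≠ 0) (hw' : w' ≠ 0)
    (h : (slice j w').map (apEquiv g).toLinearMap = slice i w) {v : Fin m → F} (hv : v ≠ 0) :
    ∃ α, α ≠ 0 ∧ (slice j v).map (apEquiv g).toLinearMap = slice i α := by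
  have hne : ∀ l : T, Nonempty (Rest l m) := fun l => ⟨fun _ => ⟨0, by omega⟩⟩
  obtain ⟨χ, hχ⟩ := exists_dot_eq_one hw
  set G : (Rest j m → F) →ₗ[F] (Rest i m → F) :=
    (con i χ).comp ((apEquiv g).toLinearMap.comp (ten j w')) with hG
  have hgG : ∀ y, ap g (ten j w' y) = ten i w (G y) := by
    intro y
    obtain ⟨y', hy'⟩ : ap g (ten j w' y) ∈ slice i w := h ▸ ⟨_, ten_mem_slice j w' y, rfl⟩
    simp [hG, ← hy', hχ]
  have hGinj : Function.Injective G := fun y y' hyy =>
    ten_injective j hw' (ap_injective g (by rw [hgG, hgG, hyy]))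
  -- conjugating the root subgroup of the slice
  have hτ : ∀ φ : perp w', ∃ φ' : perp w, ∀ z,
      con i (φ' : Fin m → F) (ap g z) = G (con j (φ : Fin m → F) z) := by
    intro φ
    obtain ⟨φ', hφ', he⟩ := mem_rootGroup_of_radical hm hM hX
      (u := g * root j w' φ (mem_perp.1 φ.2) * g⁻¹)
      (M.mul_mem (M.mul_mem hg (hM.root_mem _ _ _ _)) (M.inv_mem hg)) hw
      (fun y => by
        obtain ⟨z, ⟨y', rfl⟩, hz⟩ : ten i w y ∈ (slice j w').map (apEquiv g).toLinearMap :=
          h ▸ ten_mem_slice i w y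
        simp only [LinearEquiv.coe_coe, apEquiv_apply] at hz
        rw [← hz, ap_mul, ap_mul, ap_inv_ap]
        simp [mem_perp.1 φ.2])
      (fun z => by
        rw [← h]
        refine ⟨ten j w' (con j (φ : Fin m → F) (ap g⁻¹ z)), ten_mem_slice _ _ _, ?_⟩
        simp [ap_mul, ap_add, ap_ap_inv])
    refine ⟨⟨φ', hφ'⟩, fun z => ten_injective i hw ?_⟩
    have := congrArg (fun k => ap k (ap g z)) he
    simp only [ap_mul, ap_inv_ap, ap_root, ap_add, hgG] at this
    exact (add_left_cancel this).symm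
  choose τ hτ using hτ
  have hgsur : ∀ z, ∃ z', ap g z' = z := fun z => ⟨_, ap_ap_inv g z⟩
  let τl : perp w' →ₗ[F] perp w :=
    { toFun := τ
      map_add' := fun φ ψ => Subtype.ext (con_inj i fun z => by
        obtain ⟨z', rfl⟩ := hgsur z
        rw [hτ]
        simp [con_add_left, hτ])
      map_smul' := fun c φ => Subtype.ext (con_inj i fun z => by
        obtain ⟨z', rfl⟩ := hgsur z
        rw [hτ]
        simp [con_smul_left, hτ]) }
  have hτinj : Function.Injective τl := fun φ ψ he => Subtype.ext (con_inj j fun z => hGinj (by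
    rw [← hτ, ← hτ]
    exact congrArg (fun φ : perp w => con i (φ : Fin m → F) (ap g z)) he))
  have hdim : Module.finrank F (perp w') = Module.finrank F (perp w) := by
    have h1 := finrank_perp hw
    have h2 := finrank_perp hw'
    omega
  set τe := LinearMap.linearEquivOfInjective τl hτinj hdim with hτe
  have hτe' : ∀ φ, τe φ = τl φ := fun φ => rfl
  -- the image of a root element of another slice
  obtain ⟨lam, hlam⟩ := LinearMap.exists_extend
    (({ toFun := fun φ => φ ⬝ᵥ v
        map_add' := fun φ ψ => add_dotProduct φ ψ v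
        map_smul' := fun c φ => smul_dotProduct c φ v } : (Fin m → F) →ₗ[F] F).comp
      ((perp w').subtype.comp τe.symm.toLinearMap))
  set v' : Fin m → F := fun a => lam (Pi.single a 1) with hv'
  have hv'dot : ∀ φ : perp w', (τ φ : Fin m → F) ⬝ᵥ v' = (φ : Fin m → F) ⬝ᵥ v := by
    intro φ
    have h1 : lam (τ φ : Fin m → F) = (φ : Fin m → F) ⬝ᵥ v := by
      have := LinearMap.congr_fun hlam (τe φ)
      simp only [LinearMap.comp_apply, LinearEquiv.coe_coe, LinearEquiv.symm_apply_apply,
        Submodule.subtype_apply] at this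
      exact this
    rw [← h1]
    conv_rhs => rw [pi_eq_sum_univ' (τ φ : Fin m → F)]
    simp [dotProduct, hv', map_sum]
  obtain ⟨ψ, hψ0, hψw, hψv⟩ := exists_ne_zero_dot_two hm w' v
  set ρ := τ ⟨ψ, hψw⟩ with hρ
  have hρv : (ρ : Fin m → F) ⬝ᵥ v' = 0 := (hv'dot ⟨ψ, hψw⟩).trans hψv
  set k := g * root j v ψ hψv * g⁻¹ with hk
  have hkM : k ∈ M := M.mul_mem (M.mul_mem hg (hM.root_mem _ _ _ _)) (M.inv_mem hg)
  set r := root i v' (ρ : Fin m → F) hρv with hr
  obtain ⟨φe, hφe, hke⟩ := mem_rootGroup_of_radical hm hM hX (u := r⁻¹ * k)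
    (M.mul_mem (M.inv_mem (hM.root_mem _ _ _ _)) hkM) hw
    (fun y => by
      obtain ⟨z, ⟨y', rfl⟩, hz⟩ : ten i w y ∈ (slice j w').map (apEquiv g).toLinearMap :=
        h ▸ ten_mem_slice i w y
      simp only [LinearEquiv.coe_coe, apEquiv_apply] at hz
      have h1 : ap k (ten i w y) = ten i w y := by
        rw [← hz, hk, ap_mul, ap_mul, ap_inv_ap]
        simp [hψw]
      have h2 : ap r (ten i w y) = ten i w y := by simp [hr, mem_perp.1 ρ.2]
      rw [ap_mul, h1]
      nth_rw 1 [← h2]
      rw [ap_inv_ap])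
    (fun z => by
      rw [mem_slice_iff i hw]
      intro φ hφ
      obtain ⟨φ₀, hφ₀⟩ : ∃ φ₀ : perp w', τ φ₀ = ⟨φ, hφ⟩ := τe.surjective ⟨φ, hφ⟩
      obtain ⟨z', rfl⟩ := hgsur z
      have hc : ∀ x, con i φ (ap g x) = G (con j (φ₀ : Fin m → F) x) := fun x => by
        rw [← hτ, hφ₀]
      have hd : φ ⬝ᵥ v' = (φ₀ : Fin m → F) ⬝ᵥ v := by rw [← hv'dot, hφ₀]
      have e1 : con i φ (ap k (ap g z')) =
          con i φ (ap g z') + ((φ₀ : Fin m → F) ⬝ᵥ v) • G (con j ψ z') := by
        rw [hk, ap_mul, ap_mul, ap_inv_ap, hc, hc, ap_root, map_add, map_add, con_ten, map_smul]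
      have e2 : con i (ρ : Fin m → F) (ap k (ap g z')) = G (con j ψ z') := by
        rw [hk, ap_mul, ap_mul, ap_inv_ap, hρ, hτ, ap_root, map_add, map_add, con_ten, hψv]
        simp
      rw [hr, root_inv, ap_mul, ap_root, map_sub, map_add, con_ten, e1, e2, dotProduct_neg, hd]
      simp)
  have hk' : k = r * root i w φe hφe := by rw [← hke, mul_inv_cancel_left]
  have hmov : mov k = (slice j v).map (apEquiv g).toLinearMap := by
    rw [hk, mov_conj, mov_root j hψv hψ0]
  have hkval : ∀ c y, ap k (ten i c y) - ten i c y =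
      ten i ((φe ⬝ᵥ c) • w + ((ρ : Fin m → F) ⬝ᵥ c) • v') y := by
    intro c y
    rw [hk', hr]
    simp only [ap_mul, ap_root, map_add, con_ten, map_smul, mem_perp.1 ρ.2]
    simp [ten_add_left, ten_smul_left]
    abel
  obtain ⟨c, hc⟩ : ∃ c, (φe ⬝ᵥ c) • w + ((ρ : Fin m → F) ⬝ᵥ c) • v' ≠ 0 := by
    by_contra hall
    push Not at hall
    have hk1 : k = 1 := gl_ext (LinearMap.congr_fun (ext_ten i
      (f := (apEquiv k).toLinearMap) (f' := LinearMap.id) fun c y => by
        have := hkval c y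
        rw [hall c, ten_zero_left, sub_eq_zero] at this
        exact this) · |>.trans (ap_one _).symm)
    rw [hk, conj_eq_one_iff] at hk1
    exact root_ne_one j hψv hv hψ0 hk1
  refine ⟨_, hc, ?_⟩
  rw [← hmov]
  refine (Submodule.eq_of_le_of_finrank_le ?_ ?_).symm
  · rintro _ ⟨y, rfl⟩
    rw [← hkval]
    exact sub_mem_mov _ _
  · rw [hmov, LinearEquiv.finrank_map_eq, finrank_slice j hv, finrank_slice i hc]

/-- An element carrying a slice to a slice carries a factor to a factor. -/
theorem split_of_map_slice [Finite F] (hm : 3 ≤ m) (hM : Over M) (hX : ¬ Mixed M)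
    {g : GL (T → Fin m) F} (hg : g ∈ M) {i j : T} {w w' : Fin m → F} (hw : w ≠ 0) (hw' : w' ≠ 0)
    (h : (slice j w').map (apEquiv g).toLinearMap = slice i w) : Split g j i := by
  have hne : ∀ l : T, Nonempty (Rest l m) := fun l => ⟨fun _ => ⟨0, by omega⟩⟩
  obtain ⟨χ, hχ⟩ := exists_dot_eq_one hw
  set G : (Rest j m → F) →ₗ[F] (Rest i m → F) :=
    (con i χ).comp ((apEquiv g).toLinearMap.comp (ten j w')) with hG
  have hgG : ∀ y, ap g (ten j w' y) = ten i w (G y) := by
    intro y
    obtain ⟨y', hy'⟩ : ap g (ten j w' y) ∈ slice i w := h ▸ ⟨_, ten_mem_slice j w' y, rfl⟩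
    simp [hG, ← hy', hχ]
  have hGinj : Function.Injective G := fun y y' hyy =>
    ten_injective j hw' (ap_injective g (by rw [hgG, hgG, hyy]))
  have hall : ∀ v, ∃ α, ∀ y, ap g (ten j v y) = ten i α (G y) := by
    intro v
    by_cases hv : v ∈ Submodule.span F {w'}
    · obtain ⟨s, rfl⟩ := Submodule.mem_span_singleton.1 hv
      exact ⟨s • w, fun y => by rw [ten_smul_left, ap_smul, hgG, ← ten_smul_left]⟩
    have hv0 : v ≠ 0 := fun h0 => hv (h0 ▸ zero_mem _)
    have hvw : v + w' ≠ 0 := fun h0 => hv (by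
      rw [eq_neg_of_add_eq_zero_left h0]
      exact neg_mem (Submodule.mem_span_singleton_self _))
    obtain ⟨α, hα, hαs⟩ := exists_slice_image hm hM hX hg hw hw' h hv0
    obtain ⟨β, -, hβs⟩ := exists_slice_image hm hM hX hg hw hw' h hvw
    have hαw : α ∉ Submodule.span F {w} := by
      intro hmem
      obtain ⟨s, hs⟩ := Submodule.mem_span_singleton.1 hmem
      have hs0 : s ≠ 0 := fun h0 => hα (by rw [← hs, h0, zero_smul])
      rw [← hs, slice_smul i hs0, ← h] at hαs
      exact hv (mem_span_of_slice_le j hw'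
        (Submodule.map_injective_of_injective (apEquiv g).injective hαs).le)
    obtain ⟨φ₁, hφ₁, hφ₁α⟩ := exists_dot_of_notMem hαw
    have hwα : w ∉ Submodule.span F {α} := fun hmem => by
      obtain ⟨s, hs⟩ := Submodule.mem_span_singleton.1 hmem
      have hs0 : s ≠ 0 := fun h0 => hw (by rw [← hs, h0, zero_smul])
      exact hαw (Submodule.mem_span_singleton.2 ⟨s⁻¹, by rw [← hs, inv_smul_smul₀ hs0]⟩)
    obtain ⟨φ₂, hφ₂, hφ₂w⟩ := exists_dot_of_notMem hwα
    have h1w : φ₁ ⬝ᵥ w = 0 := hφ₁ _ (Submodule.mem_span_singleton_self _)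
    have h2α : φ₂ ⬝ᵥ α = 0 := hφ₂ _ (Submodule.mem_span_singleton_self _)
    refine ⟨((φ₁ ⬝ᵥ β) * (φ₂ ⬝ᵥ β)⁻¹) • α, fun y => ?_⟩
    by_cases hy : y = 0
    · simp [hy, ap_zero]
    obtain ⟨y₁, hy₁⟩ : ap g (ten j v y) ∈ slice i α := hαs ▸ ⟨_, ten_mem_slice j v y, rfl⟩
    obtain ⟨y₂, hy₂⟩ : ap g (ten j (v + w') y) ∈ slice i β :=
      hβs ▸ ⟨_, ten_mem_slice j (v + w') y, rfl⟩
    rw [ten_add_left, ap_add, ← hy₁, hgG] at hy₂
    have e1 := congrArg (con i φ₁) hy₂
    have e2 := congrArg (con i φ₂) hy₂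
    simp [hφ₁α, h1w, hφ₂w, h2α] at e1 e2
    have hb : φ₂ ⬝ᵥ β ≠ 0 := fun h0 => by
      rw [h0, zero_smul] at e2
      exact hy (hGinj (e2.symm.trans (map_zero G).symm))
    rw [← hy₁, ← e1, ← e2, map_smul, ten_smul_left, map_smul, smul_smul]
    congr 1
    field_simp
  choose α hα using hall
  have hy₀ : G (fun _ => 1) ≠ 0 := fun h0 => by
    have := congrFun (hGinj (h0.trans (map_zero G).symm)) (Classical.arbitrary _)
    exact one_ne_zero this
  have key : ∀ u β, (∀ y, ap g (ten j u y) = ten i β (G y)) → α u = β := fun u β hβ =>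
    ten_inj_left i hy₀ ((hα u _).symm.trans (hβ _))
  let αl : (Fin m → F) →ₗ[F] (Fin m → F) :=
    { toFun := α
      map_add' := fun u u' => key _ _ fun y => by
        rw [ten_add_left, ap_add, hα, hα, ← ten_add_left]
      map_smul' := fun c u => key _ _ fun y => by
        simp only [RingHom.id_apply]
        rw [ten_smul_left, ap_smul, hα, ← ten_smul_left] }
  have hαinj : Function.Injective αl := by
    refine (injective_iff_map_eq_zero _).2 fun u hu => ?_
    have h1 := hα u fun _ => 1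
    rw [show α u = 0 from hu, ten_zero_left] at h1
    have h2 : ten j u (fun _ => (1 : F)) = ten j 0 (fun _ => 1) := by
      rw [ten_zero_left]
      exact ap_injective g (h1.trans (ap_zero g).symm)
    exact ten_inj_left j (fun h0 => one_ne_zero (congrFun h0 (Classical.arbitrary _))) h2
  refine ⟨ofEquiv (LinearEquiv.ofBijective αl ⟨hαinj, LinearMap.injective_iff_surjective.1 hαinj⟩),
    LinearMap.linearEquivOfInjective G hGinj (by rw [finrank_rest, finrank_rest]), fun v y => ?_⟩
  rw [ap_ofEquiv]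
  exact hα v y

end CfsgLib.Geometric.TPow
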